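import Cfsg.Agent.Lib.Solv.MinNormal
import Cfsg.Agent.Lib.Solv.Coprime2
import Cfsg.Agent.Lib.Solv.SchurZassenhaus

/-!
A symmetric group of degree three acting coprimely without common fixed points.
-/

set_option autoImplicit false

namespace Cfsg.Lib.Solv.S3

open Subgroup
open scoped Pointwise

universe u

/-- The internal form of the action: `⟨s, t⟩` is an image of the symmetric group of degree three. -/
structure IsFpf {X : Type u} [Group X] (K : Subgroup X) (s t : X) : Prop where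
  s3 : s * (s * s) = 1
  t2 : t * t = 1
  ts : t * s = s * s * t
  cop : (Nat.card K).Coprime 6
  fpf : ∀ k ∈ K, Commute s k → Commute t k → k = 1

namespace IsFpf

variable {X : Type u} [Group X] {K : Subgroup X} {s t : X}

theorem tinv (h : IsFpf K s t) : t⁻¹ = t := inv_eq_of_mul_eq_one_left h.t2

theorem sinv (h : IsFpf K s t) : s⁻¹ = s * s := inv_eq_of_mul_eq_one_right h.s3

theorem conj_s (h : IsFpf K s t) : t * s * t⁻¹ = s⁻¹ := by
  rw [h.ts, mul_inv_cancel_right, h.sinv]

theorem pow_three (h : IsFpf K s t) : s ^ 3 = 1 := by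
  rw [pow_succ', pow_two, h.s3]

theorem pow_mod (h : IsFpf K s t) (i : ℕ) : s ^ i = s ^ (i % 3) :=
  pow_eq_pow_mod i h.pow_three

theorem t_mul_pow (h : IsFpf K s t) (i : ℕ) : t * s ^ i = s ^ (2 * i) * t := by
  induction i with
  | zero => simp
  | succ i ih =>
    rw [pow_succ, ← mul_assoc, ih, mul_assoc, h.ts, ← mul_assoc, Nat.mul_succ, pow_add, pow_two]

/-- Replacing `t` by another involution of the group. -/
theorem shift (h : IsFpf K s t) (i : ℕ) : IsFpf K s (s ^ i * t) where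
  s3 := h.s3
  t2 := by
    rw [mul_assoc, ← mul_assoc t, h.t_mul_pow, mul_assoc, h.t2, mul_one, ← pow_add,
      show i + 2 * i = 3 * i by omega, pow_mul, h.pow_three, one_pow]
  ts := by
    have hc : Commute (s * s) (s ^ i) := ((Commute.refl s).mul_left (Commute.refl s)).pow_right i
    rw [mul_assoc, h.ts, ← mul_assoc, ← hc.eq, mul_assoc]
  cop := h.cop
  fpf := fun k hk hs ht => h.fpf k hk hs (by
    have h2 := ((hs.pow_left i).inv_left).mul_left ht
    simpa using h2)

theorem conj_mem_zpowers (h : IsFpf K s t) {H : Subgroup X} (hs : s ∈ normalizer (H : Set X)) :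
    zpowers s ≤ normalizer (H : Set X) := zpowers_le.2 hs

theorem card_zpowers_s (h : IsFpf K s t) : IsPGroup 3 (zpowers s) := fun x => ⟨1, by
  obtain ⟨x, hx⟩ := x
  obtain ⟨n, rfl⟩ := mem_zpowers_iff.1 hx
  refine Subtype.ext ?_
  show (s ^ n) ^ 3 ^ 1 = 1
  rw [pow_one, ← zpow_natCast, ← zpow_mul, mul_comm, zpow_mul, zpow_natCast, h.pow_three, one_zpow]⟩

theorem card_zpowers_t (h : IsFpf K s t) : IsPGroup 2 (zpowers t) := fun x => ⟨1, by
  obtain ⟨x, hx⟩ := x
  obtain ⟨n, rfl⟩ := mem_zpowers_iff.1 hx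
  refine Subtype.ext ?_
  show (t ^ n) ^ 2 ^ 1 = 1
  rw [pow_one, ← zpow_natCast, ← zpow_mul, mul_comm, zpow_mul, zpow_natCast, pow_two, h.t2, one_zpow]⟩

theorem not_three_dvd (h : IsFpf K s t) {H : Subgroup X} (hH : H ≤ K) : ¬ 3 ∣ Nat.card H := fun hd => by
  have := Nat.eq_one_of_dvd_coprimes h.cop (hd.trans (card_dvd_of_le hH)) (by norm_num)
  omega

theorem not_two_dvd (h : IsFpf K s t) {H : Subgroup X} (hH : H ≤ K) : ¬ 2 ∣ Nat.card H := fun hd => by
  have := Nat.eq_one_of_dvd_coprimes h.cop (hd.trans (card_dvd_of_le hH)) (by norm_num)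
  omega

theorem eq_one_of_pow_three (h : IsFpf K s t) {k : X} (hk : k ∈ K) (h3 : k ^ 3 = 1) : k = 1 := by
  have h1 : orderOf k ∣ 3 := orderOf_dvd_of_pow_eq_one h3
  have h2 : orderOf k ∣ Nat.card K := orderOf_mk k hk ▸ orderOf_dvd_natCard _
  exact orderOf_eq_one_iff.1 (Nat.eq_one_of_dvd_coprimes h.cop h2 (h1.trans (by norm_num)))

theorem eq_one_of_sq (h : IsFpf K s t) {k : X} (hk : k ∈ K) (h3 : k ^ 2 = 1) : k = 1 := by
  have h1 : orderOf k ∣ 2 := orderOf_dvd_of_pow_eq_one h3
  have h2 : orderOf k ∣ Nat.card K := orderOf_mk k hk ▸ orderOf_dvd_natCard _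
  exact orderOf_eq_one_iff.1 (Nat.eq_one_of_dvd_coprimes h.cop h2 (h1.trans (by norm_num)))

variable [Finite X] [hKn : K.Normal]

theorem t_inverts (h : IsFpf K s t) {c : X} (hc : c ∈ K) (hcs : Commute s c) :
    t * c * t⁻¹ = c⁻¹ := by
  let C : Subgroup X := K ⊓ centralizer ({s} : Set X)
  have hmem : ∀ c : C, Commute s (c : X) := fun c => (mem_centralizer_singleton_iff.1 c.2.2).symm
  have hcomm : ∀ {c : X}, Commute s c → Commute s (t * c * t⁻¹) := fun {c} hc => by
    have h2 : Commute (t * s⁻¹ * t⁻¹) (t * c * t⁻¹) := by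
      show _ * _ = _ * _
      calc t * s⁻¹ * t⁻¹ * (t * c * t⁻¹) = t * (s⁻¹ * c) * t⁻¹ := by group
        _ = t * (c * s⁻¹) * t⁻¹ := by rw [hc.inv_left.eq]
        _ = _ := by group
    have e : t * s⁻¹ * t⁻¹ = s := by
      calc t * s⁻¹ * t⁻¹ = (t * s * t⁻¹)⁻¹ := by group
        _ = s := by rw [h.conj_s, inv_inv]
    rwa [e] at h2
  have hCm : ∀ {c : X}, c ∈ K → Commute s c → c ∈ C := fun {c} hc hs =>
    ⟨hc, mem_centralizer_singleton_iff.2 hs.eq.symm⟩
  let f : C → C := fun a => ⟨(a : X)⁻¹ * (t * (a : X) * t⁻¹),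
    hCm (K.mul_mem (K.inv_mem a.2.1) (hKn.conj_mem _ a.2.1 t))
      ((hmem a).inv_right.mul_right (hcomm (hmem a)))⟩
  have hf : Function.Injective f := by
    intro a b hab
    have e : (a : X)⁻¹ * (t * (a : X) * t⁻¹) = (b : X)⁻¹ * (t * (b : X) * t⁻¹) :=
      congrArg Subtype.val hab
    have h1 : Commute t ((b : X) * (a : X)⁻¹) := by
      show t * _ = _ * t
      calc t * ((b : X) * (a : X)⁻¹)
          = (b : X) * ((b : X)⁻¹ * (t * (b : X) * t⁻¹)) * (t * (a : X) * t⁻¹)⁻¹ * t := by group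
        _ = (b : X) * ((a : X)⁻¹ * (t * (a : X) * t⁻¹)) * (t * (a : X) * t⁻¹)⁻¹ * t := by rw [e]
        _ = _ := by group
    have := h.fpf _ (K.mul_mem b.2.1 (K.inv_mem a.2.1)) ((hmem b).mul_right (hmem a).inv_right) h1
    exact Subtype.ext (mul_inv_eq_one.1 this).symm
  obtain ⟨a, ha⟩ := (Finite.injective_iff_surjective.1 hf) ⟨c, hCm hc hcs⟩
  have e : (a : X)⁻¹ * (t * (a : X) * t⁻¹) = c := congrArg Subtype.val ha
  rw [← e]
  calc t * ((a : X)⁻¹ * (t * (a : X) * t⁻¹)) * t⁻¹
      = (t * (a : X) * t⁻¹)⁻¹ * ((t * t) * (a : X) * (t * t)⁻¹) := by group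
    _ = _ := by rw [h.t2]; group

theorem centralizer_s_comm (h : IsFpf K s t) {a b : X} (ha : a ∈ K) (hb : b ∈ K)
    (has : Commute s a) (hbs : Commute s b) : Commute a b := by
  have h1 := h.t_inverts (K.mul_mem ha hb) (has.mul_right hbs)
  have h2 : t * (a * b) * t⁻¹ = (t * a * t⁻¹) * (t * b * t⁻¹) := by group
  rw [h2, h.t_inverts ha has, h.t_inverts hb hbs, mul_inv_rev] at h1
  have h3 : (a⁻¹ * b⁻¹)⁻¹ = (b⁻¹ * a⁻¹)⁻¹ := congrArg _ h1
  simp only [mul_inv_rev, inv_inv] at h3
  exact h3.symm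

/-- Common fixed cosets are trivial. -/
theorem mem_of_fixed (h : IsFpf K s t) {N : Subgroup X} (hNK : N ≤ K)
    (hK : K ≤ normalizer (N : Set X)) (hs : s ∈ normalizer (N : Set X))
    (ht : t ∈ normalizer (N : Set X)) {k : X} (hk : k ∈ K)
    (h1 : s * k * s⁻¹ * k⁻¹ ∈ N) (h2 : t * k * t⁻¹ * k⁻¹ ∈ N) : k ∈ N := by
  haveI : Fact (Nat.Prime 3) := ⟨Nat.prime_three⟩
  haveI : Fact (Nat.Prime 2) := ⟨Nat.prime_two⟩
  have key : ∀ (g : X), g ∈ normalizer (N : Set X) → g * k * g⁻¹ * k⁻¹ ∈ N →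
      ∀ b ∈ zpowers g, b * k * b⁻¹ * k⁻¹ ∈ N := by
    intro g hg hgk b hb
    let T : Subgroup X :=
      { carrier := {b | b ∈ normalizer (N : Set X) ∧ b * k * b⁻¹ * k⁻¹ ∈ N}
        one_mem' := ⟨one_mem _, by simp⟩
        mul_mem' := fun {a b} ha hb => ⟨mul_mem ha.1 hb.1, by
          have h3 := mul_mem ((mem_normalizer_iff.1 ha.1 _).1 hb.2) ha.2
          have e : a * b * k * (a * b)⁻¹ * k⁻¹ =
              a * (b * k * b⁻¹ * k⁻¹) * a⁻¹ * (a * k * a⁻¹ * k⁻¹) := by group
          rw [e]; exact h3⟩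
        inv_mem' := fun {a} ha => ⟨inv_mem ha.1, by
          have h3 := inv_mem ((mem_normalizer_iff''.1 ha.1 _).1 ha.2)
          have e : a⁻¹ * k * a⁻¹⁻¹ * k⁻¹ = (a⁻¹ * (a * k * a⁻¹ * k⁻¹) * a)⁻¹ := by group
          rw [e]; exact h3⟩ }
    exact ((zpowers_le (H := T)).2 ⟨hg, hgk⟩ hb).2
  obtain ⟨c, hc, hcN⟩ := exists_fixed_in_coset h.card_zpowers_s hNK hK (zpowers_le.2 hs)
    (h.not_three_dvd hNK) hk (key s hs h1)
  have hcs : Commute s c := mem_centralizer_iff.1 hc.2 s (mem_zpowers s)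
  set K' := K ⊓ centralizer ({s} : Set X) with hK'
  set N' := N ⊓ centralizer ({s} : Set X) with hN'
  have hCt : t ∈ normalizer (centralizer ({s} : Set X) : Set X) := by
    have e : ∀ x, Commute s x → Commute s (t * x * t⁻¹) := fun x hx => by
      show s * (t * x * t⁻¹) = t * x * t⁻¹ * s
      calc s * (t * x * t⁻¹) = t * ((t⁻¹ * s * t) * x) * t⁻¹ := by group
        _ = t * ((t * s * t⁻¹) * x) * t⁻¹ := by rw [h.tinv]
        _ = t * (x * (t * s * t⁻¹)) * t⁻¹ := by rw [h.conj_s, hx.inv_left.eq]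
        _ = t * (x * (t⁻¹ * s * t)) * t⁻¹ := by rw [h.tinv]
        _ = _ := by group
    refine mem_normalizer_iff.2 fun x => ⟨fun hx => ?_, fun hx => ?_⟩
    · exact mem_centralizer_singleton_iff.2 (e x (mem_centralizer_singleton_iff.1 hx).symm).eq.symm
    · have h3 := e _ (mem_centralizer_singleton_iff.1 hx).symm
      have e2 : t * (t * x * t⁻¹) * t⁻¹ = (t * t) * x * (t * t)⁻¹ := by group
      rw [e2, h.t2, one_mul, inv_one, mul_one] at h3
      exact mem_centralizer_singleton_iff.2 h3.eq.symm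
  have hinf : ∀ (H : Subgroup X) (g : X), g ∈ normalizer (H : Set X) →
      g ∈ normalizer (centralizer ({s} : Set X) : Set X) →
      g ∈ normalizer ((H ⊓ centralizer ({s} : Set X) : Subgroup X) : Set X) := fun H g h3 h4 =>
    mem_normalizer_iff.2 fun x => by
      rw [mem_inf, mem_inf, mem_normalizer_iff.1 h3 x, mem_normalizer_iff.1 h4 x]
  have hK'n : K' ≤ normalizer (N' : Set X) := fun g hg => hinf N g (hK hg.1) (le_normalizer hg.2)
  have htN' : t ∈ normalizer (N' : Set X) := hinf N t ht hCt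
  have hcK : c ∈ K' := ⟨hc.1, mem_centralizer_singleton_iff.2 hcs.eq.symm⟩
  have hfix : t * c * t⁻¹ * c⁻¹ ∈ N' := by
    refine ⟨?_, mul_mem ((mem_normalizer_iff.1 hCt c).1 hcK.2) ((centralizer ({s} : Set X)).inv_mem hcK.2)⟩
    set n := k⁻¹ * c with hn
    have e : t * c * t⁻¹ * c⁻¹ = (t * k * t⁻¹ * k⁻¹) * (k * (t * n * t⁻¹ * n⁻¹) * k⁻¹) := by
      rw [hn]; group
    rw [e]
    exact mul_mem h2 ((mem_normalizer_iff.1 (hK hk) _).1
      (mul_mem ((mem_normalizer_iff.1 ht _).1 hcN) (inv_mem hcN)))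
  have hkey : ∀ b ∈ zpowers t, b * c * b⁻¹ * c⁻¹ ∈ N' := by
    intro b hb
    obtain ⟨i, rfl⟩ := mem_zpowers_iff.1 hb
    rcases Int.even_or_odd i with ⟨j, rfl⟩ | ⟨j, rfl⟩
    · rw [← two_mul, zpow_mul, zpow_two, h.t2, one_zpow]; simp
    · rw [zpow_add, zpow_mul, zpow_two, h.t2, one_zpow, one_mul, zpow_one]; exact hfix
  obtain ⟨d, hd, hdN⟩ := exists_fixed_in_coset h.card_zpowers_t (inf_le_inf_right _ hNK) hK'n
    (zpowers_le.2 htN') (h.not_two_dvd (inf_le_left.trans hNK)) hcK hkey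
  have hd1 : d = 1 := h.fpf d hd.1.1 (mem_centralizer_singleton_iff.1 hd.1.2).symm
    (mem_centralizer_iff.1 hd.2 t (mem_zpowers t))
  rw [hd1, mul_one, inv_mem_iff] at hdN
  simpa using N.mul_mem hdN.1 (N.inv_mem hcN)

theorem map_quotient (h : IsFpf K s t) (N : Subgroup X) [N.Normal] (hNK : N ≤ K) :
    IsFpf (K.map (QuotientGroup.mk' N)) (s : X ⧸ N) (t : X ⧸ N) where
  s3 := by rw [← QuotientGroup.mk_mul, ← QuotientGroup.mk_mul, h.s3]; rfl
  t2 := by rw [← QuotientGroup.mk_mul, h.t2]; rfl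
  ts := by simp only [← QuotientGroup.mk_mul, h.ts]
  cop := h.cop.coprime_dvd_left (card_map_dvd _ _)
  fpf := by
    rintro _ ⟨k, hk, rfl⟩ h1 h2
    refine (QuotientGroup.eq_one_iff k).2 (h.mem_of_fixed hNK ?_ ?_ ?_ hk ?_ ?_)
    · rw [normalizer_eq_top]; exact le_top
    · rw [normalizer_eq_top]; exact mem_top _
    · rw [normalizer_eq_top]; exact mem_top _
    · rw [← QuotientGroup.eq_one_iff]
      simp only [QuotientGroup.mk_mul, QuotientGroup.mk_inv]
      simp only [QuotientGroup.mk'_apply] at h1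
      rw [h1.eq]
      group
    · rw [← QuotientGroup.eq_one_iff]
      simp only [QuotientGroup.mk_mul, QuotientGroup.mk_inv]
      simp only [QuotientGroup.mk'_apply] at h2
      rw [h2.eq]
      group

omit [Finite X] in
theorem norm_eq_one (h : IsFpf K s t) {V : Subgroup X} [hVn : V.Normal] (hVK : V ≤ K)
    (hVc : IsMulCommutative V) (x : V) :
    (x * MulAut.conjNormal s x * MulAut.conjNormal (s * s) x) *
      (MulAut.conjNormal t x * MulAut.conjNormal (s * t) x * MulAut.conjNormal (s * s * t) x) = 1 := by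
  letI : CommGroup V := { (inferInstance : Group V) with mul_comm := mul_comm' }
  set c := (MulAut.conjNormal : X →* MulAut V) with hc
  have hm : ∀ g g' y, c g (c g' y) = c (g * g') y := fun g g' y => by rw [map_mul]; rfl
  have h1 : c 1 x = x := by rw [map_one]; rfl
  set P := (x * c s x * c (s * s) x) * (c t x * c (s * t) x * c (s * s * t) x) with hP
  have e1 : s * (s * s * t) = t := by rw [← mul_assoc, h.s3, one_mul]
  have e2 : s * (s * t) = s * s * t := (mul_assoc _ _ _).symm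
  have e3 : t * (s * s) = s * t := by
    have := h.t_mul_pow 2
    rwa [pow_two, h.pow_mod (2 * 2), show 2 * 2 % 3 = 1 from rfl, pow_one] at this
  have e4 : t * (s * t) = s * s := by rw [← mul_assoc, h.ts, mul_assoc, h.t2, mul_one]
  have e5 : t * (s * s * t) = s := by rw [← mul_assoc, e3, mul_assoc, h.t2, mul_one]
  have hs : c s P = P := by
    simp only [hP, map_mul (c s), hm, h.s3, h1, e1, e2]
    ac_rfl
  have ht : c t P = P := by
    simp only [hP, map_mul (c t), hm, h.t2, h1, h.ts, e3, e4, e5]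
    generalize c s x = a1, c (s * s) x = a2, c t x = a3, c (s * t) x = a4, c (s * s * t) x = a5
    ac_rfl
  have hcom : ∀ g, c g P = P → Commute g (P : X) := fun g hg => by
    have h2 := congrArg Subtype.val hg
    rw [hc, MulAut.conjNormal_apply] at h2
    exact mul_inv_eq_iff_eq_mul.1 h2
  exact Subtype.ext (h.fpf (P : X) (hVK P.2) (hcom s hs) (hcom t ht))

end IsFpf

/-- The set of elements of `K` centralising an element of order two or three of the acting group. -/
def gens {X : Type u} [Group X] (K : Subgroup X) (s t : X) : Set X :=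
  {k | k ∈ K ∧ (Commute s k ∨ ∃ i : ℕ, Commute (s ^ i * t) k)}

theorem closure_gens_aux : ∀ (n : ℕ) (X : Type u) [Group X] [Finite X], Nat.card X ≤ n →
    ∀ (K : Subgroup X) [K.Normal] (s t : X), IsFpf K s t → Group.IsSolvable K →
      closure (gens K s t) = K := by
  intro n
  induction n with
  | zero => intro X _ _ hn; exact absurd hn (Nat.not_le.2 Nat.card_pos)
  | succ n ih =>
    intro X _ _ hn K hKn s t h hsol
    refine le_antisymm ((closure_le K).2 fun k hk => hk.1) ?_
    by_cases hK : K = ⊥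
    · rw [hK]; exact bot_le
    obtain ⟨V, hVn, hVK, hVne, hVmin⟩ := exists_minimal_normal_le hK
    haveI := hVn
    obtain ⟨hVc, -⟩ := minimal_normal_elementary hVne (solvable_of_le hVK hsol) hVmin
    have hlift : ∀ u : X, (∃ q, q.Prime ∧ IsPGroup q (zpowers u) ∧ ¬ q ∣ Nat.card V) →
        ∀ k ∈ K, Commute (u : X ⧸ V) (k : X ⧸ V) →
        ∃ c ∈ K, Commute u c ∧ k⁻¹ * c ∈ V := by
      rintro u ⟨q, hq, hqu, hqV⟩ k hk hcom
      haveI := Fact.mk hq
      obtain ⟨c, hc, hcV⟩ := exists_fixed_in_coset hqu hVK (by rw [normalizer_eq_top]; exact le_top)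
        (by rw [normalizer_eq_top]; exact le_top) hqV hk (fun b hb => by
          rw [← QuotientGroup.eq_one_iff]
          simp only [QuotientGroup.mk_mul, QuotientGroup.mk_inv]
          obtain ⟨i, rfl⟩ := mem_zpowers_iff.1 hb
          rw [QuotientGroup.mk_zpow, (hcom.zpow_left i).eq]
          group)
      exact ⟨c, hc.1, mem_centralizer_iff.1 hc.2 u (mem_zpowers u), hcV⟩
    have hV : V ≤ closure (gens K s t) := by
      intro x hx
      letI : CommGroup V := { (inferInstance : Group V) with mul_comm := mul_comm' }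
      set c := (MulAut.conjNormal : X →* MulAut V) with hc
      have hN := h.norm_eq_one hVK hVc ⟨x, hx⟩
      rw [← hc] at hN
      set y : V := ⟨x, hx⟩ with hy
      have hm : ∀ g g' z, c g (c g' z) = c (g * g') z := fun g g' z => by rw [map_mul]; rfl
      have h1 : c 1 y = y := by rw [map_one]; rfl
      have hinvol : ∀ i : ℕ, (((y * c (s ^ i * t) y : V)) : X) ∈ closure (gens K s t) := by
        intro i
        refine subset_closure ⟨hVK (Subtype.coe_prop _), Or.inr ⟨i, ?_⟩⟩
        have h2 : c (s ^ i * t) (y * c (s ^ i * t) y) = y * c (s ^ i * t) y := by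
          rw [map_mul, hm, (h.shift i).t2, h1, mul_comm]
        have h3 := congrArg Subtype.val h2
        rw [hc, MulAut.conjNormal_apply] at h3
        exact mul_inv_eq_iff_eq_mul.1 h3
      have hrot : (((y * c s y * c (s * s) y : V)) : X) ∈ closure (gens K s t) := by
        refine subset_closure ⟨hVK (Subtype.coe_prop _), Or.inl ?_⟩
        have h2 : c s (y * c s y * c (s * s) y) = y * c s y * c (s * s) y := by
          rw [map_mul, map_mul, hm, hm, h.s3, h1]; ac_rfl
        have h3 := congrArg Subtype.val h2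
        rw [hc, MulAut.conjNormal_apply] at h3
        exact mul_inv_eq_iff_eq_mul.1 h3
      have i0 := hinvol 0
      have i1 := hinvol 1
      have i2 := hinvol 2
      rw [pow_zero, one_mul] at i0
      rw [pow_one] at i1
      rw [pow_two] at i2
      have e : (y * c s y * c (s * s) y) * (y * c t y) * (y * c (s * t) y) * (y * c (s * s * t) y) =
          y ^ 3 * ((y * c s y * c (s * s) y) * (c t y * c (s * t) y * c (s * s * t) y)) := by
        rw [pow_succ, pow_two]; ac_rfl
      rw [hN, mul_one] at e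
      have h3 : x ^ 3 ∈ closure (gens K s t) := by
        have h4 := mul_mem (mul_mem (mul_mem hrot i0) i1) i2
        rw [← coe_mul, ← coe_mul, ← coe_mul, e] at h4
        exact h4
      have hcop : Nat.Coprime 3 (orderOf x) :=
        (Nat.prime_three.coprime_iff_not_dvd.2 fun hd => h.not_three_dvd hVK
          (hd.trans (orderOf_mk x hx ▸ orderOf_dvd_natCard _)))
      obtain ⟨m, hm3⟩ := exists_pow_eq_self_of_coprime hcop
      rw [← hm3]
      exact pow_mem h3 m
    have hq := h.map_quotient V hVK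
    haveI : (K.map (QuotientGroup.mk' V)).Normal :=
      Subgroup.Normal.map inferInstance _ (QuotientGroup.mk'_surjective V)
    have hind := ih (X ⧸ V) (by
      rw [← index_eq_card]
      have h2 := V.card_mul_index
      have h3 := (one_lt_card_iff_ne_bot V).2 hVne
      nlinarith) (K.map (QuotientGroup.mk' V)) _ _ hq (solvable_map _ hsol)
    intro k hk
    have hk' : (k : X ⧸ V) ∈ (closure (gens K s t)).map (QuotientGroup.mk' V) := by
      have : (k : X ⧸ V) ∈ K.map (QuotientGroup.mk' V) := mem_map_of_mem _ hk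
      rw [← hind] at this
      revert this
      refine fun hh => (closure_le _).2 ?_ hh
      rintro _ ⟨⟨a, ha, rfl⟩, hcom⟩
      rcases hcom with hcom | ⟨i, hcom⟩
      · obtain ⟨c, hcK, hcs, hcV⟩ := hlift s ⟨3, Nat.prime_three, h.card_zpowers_s,
          h.not_three_dvd hVK⟩ a ha hcom
        exact ⟨c, subset_closure ⟨hcK, Or.inl hcs⟩, (QuotientGroup.eq.2 hcV).symm⟩
      · obtain ⟨c, hcK, hcs, hcV⟩ := hlift (s ^ i * t) ⟨2, Nat.prime_two,
          (h.shift i).card_zpowers_t, h.not_two_dvd hVK⟩ a ha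
          (by rwa [QuotientGroup.mk_mul, QuotientGroup.mk_pow])
        exact ⟨c, subset_closure ⟨hcK, Or.inr ⟨i, hcs⟩⟩, (QuotientGroup.eq.2 hcV).symm⟩
    obtain ⟨a, ha, hak⟩ := hk'
    have : a⁻¹ * k ∈ V := QuotientGroup.eq.1 hak
    simpa using mul_mem ha (hV this)

theorem closure_gens {X : Type u} [Group X] [Finite X] {K : Subgroup X} [K.Normal] {s t : X}
    (h : IsFpf K s t) (hsol : Group.IsSolvable K) : closure (gens K s t) = K :=
  closure_gens_aux _ X le_rfl K s t h hsol

end Cfsg.Lib.Solv.S3
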