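import Cfsg.Agent.Lib.Solv.S3.Rep

/-!
Normal subgroups of class two in a faithful module without common fixed points are abelian.
-/

set_option autoImplicit false

namespace Cfsg.Lib.Solv.S3

open Subgroup
open scoped commutatorElement

universe u v w x

/-- A bimultiplicative alternating pairing with the symmetries of the acting group. -/
structure Pairing {Q : Type u} [Group Q] {M : Type v} [CommGroup M] (B : Q → Q → M)
    (σ : MulAut Q) : Prop where
  left : ∀ x y z, B (x * y) z = B x z * B y z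
  skew : ∀ x y, B y x = (B x y)⁻¹
  sigma3 : ∀ x, σ (σ (σ x)) = x
  two : ∀ x y, B x y ^ 2 = 1 → B x y = 1
  three : ∀ x y, B x y ^ 3 = 1 → B x y = 1
  fixedPart : ∀ x, ∃ c, σ c = c ∧ ∀ z, B (x * σ x * σ (σ x)) z = B c z

namespace Pairing

variable {Q : Type u} [Group Q] {M : Type v} [CommGroup M] {B : Q → Q → M} {σ : MulAut Q}

theorem right (h : Pairing B σ) (x y z : Q) : B x (y * z) = B x y * B x z := by
  rw [h.skew (y * z) x, h.left, mul_inv, ← h.skew, ← h.skew]

theorem one_left (h : Pairing B σ) (z : Q) : B 1 z = 1 := by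
  have := h.left 1 1 z
  rw [mul_one] at this
  exact left_eq_mul.1 this

theorem inv_left (h : Pairing B σ) (x z : Q) : B x⁻¹ z = (B x z)⁻¹ :=
  eq_inv_of_mul_eq_one_left (by rw [← h.left, inv_mul_cancel, h.one_left])

/-- The case of an involution stabilising the central character. -/
theorem eq_one_of_tau (h : Pairing B σ) (τ : MulAut Q) (ht2 : ∀ x, τ (τ x) = x)
    (hts : ∀ x, τ (σ x) = σ (σ (τ x))) (hB : ∀ x z, B (τ x) z = B x z)
    (hinv : ∀ c, σ c = c → τ c = c⁻¹)
    (hsum : ∀ x y, B x y * B (σ x) (σ y) * B (σ (σ x)) (σ (σ y)) = 1) (x y : Q) : B x y = 1 := by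
  have hC : ∀ c, σ c = c → ∀ z, B c z = 1 := fun c hc z => h.two c z (by
    have := hB c z
    rw [hinv c hc, h.inv_left] at this
    rw [pow_two]
    exact inv_eq_iff_mul_eq_one.1 this)
  have hS : ∀ x z, B x z * B (σ x) z * B (σ (σ x)) z = 1 := fun x z => by
    obtain ⟨c, hc, hcz⟩ := h.fixedPart x
    rw [← h.left, ← h.left, hcz, hC c hc]
  have hst : ∀ x, σ (τ x) = τ (σ (σ x)) := fun x => by
    rw [hts, hts, h.sigma3]
  have hsq : ∀ x z, B (σ (x * τ x)) z ^ 2 = (B (x * τ x) z)⁻¹ := fun x z => by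
    have e1 : B (σ (σ (x * τ x))) z = B (σ (x * τ x)) z := by
      rw [map_mul, map_mul, h.left, h.left, ← hts, hst, hB, hB, mul_comm]
    have := hS (x * τ x) z
    rw [e1, mul_assoc, ← pow_two] at this
    exact eq_inv_of_mul_eq_one_right this
  set X := x * τ x with hX
  set Y := y * τ y with hY
  have e1 : ∀ z w, B (σ (σ X)) (σ (σ w)) = B (σ X) (σ (σ w)) ∧ B z (σ (σ Y)) = B z (σ Y) := by
    intro z w
    have aux : ∀ a z, B (σ (σ (a * τ a))) z = B (σ (a * τ a)) z := fun a z => by
      rw [map_mul, map_mul, h.left, h.left, ← hts, hst, hB, hB, mul_comm]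
    exact ⟨aux x _, by rw [h.skew _ z, h.skew (σ Y) z, hY, aux]⟩
  have h2 : B (σ (σ X)) (σ (σ Y)) = B (σ X) (σ Y) := by
    rw [(e1 1 Y).1, (e1 (σ X) 1).2]
  have h4 : B (σ X) (σ Y) ^ 4 = B X Y := by
    rw [show 4 = 2 * 2 from rfl, pow_mul, hX, hsq, ← hX, inv_pow, h.skew (σ Y) X, inv_pow, inv_inv,
      hY, hsq, ← hY, h.skew X Y, inv_inv]
  have hXY : B X Y = 1 := by
    have h6 : B X Y ^ 6 = 1 := by
      have h0 := congrArg (· ^ 4) (hsum X Y)
      simp only [h2, mul_pow, one_pow, h4] at h0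
      rw [← h0]
      simp only [pow_succ, pow_zero, one_mul, mul_assoc]
    refine h.three _ _ ?_
    have e : B X Y ^ 3 = B (X ^ 3) Y := by
      simp only [pow_succ, pow_zero, one_mul, h.left]
    rw [e]
    refine h.two _ _ ?_
    rw [← e, ← pow_mul]; exact h6
  have hxy : B X Y = (B x y ^ 2) ^ 2 := by
    have e1 : B x (τ y) = B x y := by rw [h.skew (τ y) x, hB, ← h.skew y x]
    rw [hX, hY, h.left, h.right, h.right, hB x y, hB x (τ y), e1, ← pow_two, ← pow_two]
  rw [hxy] at hXY
  refine h.two _ _ ?_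
  have e : B x y ^ 2 = B (x ^ 2) y := by rw [pow_two, pow_two, h.left]
  rw [e] at hXY ⊢
  exact h.two _ _ hXY

variable {k : Type w} [Field k] {R : Type x} [Ring R] [Algebra k R]

/-- The case of an element of order three stabilising the central character. -/
theorem eq_one_of_sigma [Finite Q] {B : Q → Q → kˣ} (h : Pairing B σ) (hQ0 : (Nat.card Q : k) ≠ 0)
    (hinvar : ∀ x y, B (σ x) (σ y) = B x y) (hCC : ∀ c d, σ c = c → σ d = d → B c d = 1)
    [Nontrivial R] (π : Q →* R) (S : R) (hS : ∀ x, S * π x = π (σ x) * S) (hN : 1 + S + S * S = 0)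
    (hconj : ∀ e x, π e * π x * π e⁻¹ = ((B e x : kˣ) : k) • π x) (x y : Q) : B x y = 1 := by
  classical
  letI := Fintype.ofFinite Q
  by_contra hxy
  obtain ⟨u, e₀, hv⟩ : ∃ u e, B (u⁻¹ * σ u) e ≠ 1 := by
    by_contra! hcon
    have heq : ∀ u z, B (σ u) z = B u z := fun u z => by
      have h1 := hcon u z
      rw [h.left, h.inv_left, inv_mul_eq_one] at h1
      exact h1.symm
    have h3 : ∀ u, ∃ c, σ c = c ∧ ∀ z, B u z ^ 3 = B c z := fun u => by
      obtain ⟨c, hc, hcz⟩ := h.fixedPart u
      refine ⟨c, hc, fun z => ?_⟩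
      rw [← hcz, h.left, h.left, heq, heq, heq, pow_succ, pow_two]
    obtain ⟨c, hc, hcz⟩ := h3 x
    obtain ⟨d, hd, hdz⟩ := h3 y
    have h9 : B c y ^ 3 = 1 := by
      rw [h.skew y c, inv_pow, hdz, h.skew c d, hCC c d hc hd, inv_one, inv_one]
    refine hxy (h.three _ _ ?_)
    rw [hcz]; exact h.three _ _ h9
  set g := u⁻¹ * σ u with hg
  set g₁ := σ g with hg₁
  set g₂ := σ g₁ with hg₂
  have habc : ∀ z, B g z * B g₁ z * B g₂ z = 1 := fun z => by
    simp only [hg₂, hg₁, hg, map_mul, map_inv, h.sigma3, h.left, h.inv_left]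
    generalize B u z = a1, B (σ u) z = a2, B (σ (σ u)) z = a3
    calc a1⁻¹ * a2 * (a2⁻¹ * a3) * (a3⁻¹ * a1) = a1⁻¹ * ((a2 * a2⁻¹) * (a3 * a3⁻¹)) * a1 := by ac_rfl
      _ = 1 := by simp
  have hb : ∀ z, B g₁ (σ z) = B g z := fun z => hinvar g z
  have hc : ∀ z, B g₂ (σ z) = B g₁ z := fun z => hinvar g₁ z
  have ha : ∀ z, B g (σ z) = B g₂ z := fun z => by
    conv_lhs => rw [← h.sigma3 g, ← hg₁, ← hg₂]
    exact hinvar g₂ z
  -- the relation free of `S`
  set A := π g - π g₂ with hA
  set D := π g₂ - π g₁ with hD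
  set C := π g₁ - π g with hC
  have hSS : S * S = -1 - S := eq_sub_of_add_eq (eq_neg_of_add_eq_zero_left (by
    rw [← hN]; abel))
  have P : ∀ w : Q, π w - π (σ (σ w)) = (π (σ (σ w)) - π (σ w)) * S := fun w => by
    have h0 := congrArg (· * π w) hN
    simp only [add_mul, one_mul, zero_mul, mul_assoc, hS] at h0
    rw [← mul_assoc S, hS, mul_assoc, hSS, mul_sub, mul_neg, mul_one] at h0
    rw [← sub_eq_zero, ← h0]
    noncomm_ring
  have hAD : A = D * S := P g
  have hCA : C = A * S := by
    have := P g₁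
    rw [← hg₂, show σ g₂ = g from h.sigma3 g] at this
    exact this
  have hSA : S * A = C * S := by
    rw [hA, mul_sub, hS, hS, ← hg₁, show σ g₂ = g from h.sigma3 g, ← sub_mul]
  have hE : A * A + D * A + D * C = 0 := by
    have : A * A = -(D * A) - D * C := by
      calc A * A = D * (S * A) := by
            nth_rewrite 1 [hAD]
            rw [mul_assoc]
        _ = D * (A * (S * S)) := by rw [hSA, hCA, mul_assoc]
        _ = _ := by
            rw [hSS, mul_sub, mul_neg, mul_one, ← hCA, mul_sub, mul_neg]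
    rw [this]; abel
  have hE2 : π (g * g) - π (g₁ * g₁) - π (g * g₂) - π (g₂ * g) + π (g₁ * g₂) + π (g₂ * g₁) = 0 := by
    rw [← hE, hA, hD, hC]
    simp only [map_mul]
    noncomm_ring
  -- averaging over conjugation
  let Φ : R → R := fun r => ∑ e : Q, ((B (g * g) e : kˣ) : k) • (π e * r * π e⁻¹)
  have hΦadd : ∀ a b, Φ (a + b) = Φ a + Φ b := fun a b => by
    simp only [Φ, mul_add, add_mul, smul_add, Finset.sum_add_distrib]
  have hΦsub : ∀ a b, Φ (a - b) = Φ a - Φ b := fun a b => by
    simp only [Φ, mul_sub, sub_mul, smul_sub, Finset.sum_sub_distrib]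
  have hΦ0 : Φ 0 = 0 := by simp [Φ]
  have hterm : ∀ w, Φ (π w) = (∑ e : Q, ((B (g * g * w⁻¹) e : kˣ) : k)) • π w := fun w => by
    simp only [Φ, hconj, smul_smul, Finset.sum_smul]
    refine Finset.sum_congr rfl fun e _ => ?_
    rw [h.left (g * g), h.inv_left, ← h.skew w e, Units.val_mul]
  have hvan : ∀ w, ((∀ e, B g e ^ 2 = B w e) → False) → Φ (π w) = 0 := fun w hw => by
    rw [hterm]
    let f : Q →* k :=
      { toFun := fun e => ((B (g * g * w⁻¹) e : kˣ) : k)
        map_one' := by rw [h.skew 1, h.one_left, inv_one, Units.val_one]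
        map_mul' := fun a b => by rw [h.right, Units.val_mul] }
    rw [show ∑ e : Q, ((B (g * g * w⁻¹) e : kˣ) : k) = ∑ e : Q, f e from rfl,
      sum_hom_units_eq_zero f, zero_smul]
    intro hf
    refine hw fun e => ?_
    have h2 : B (g * g * w⁻¹) e = 1 := Units.ext (DFunLike.congr_fun hf e)
    rw [h.left, h.left, h.inv_left, mul_inv_eq_one] at h2
    rw [pow_two]; exact h2
  have main : Φ (π (g * g)) = (Nat.card Q : k) • π (g * g) := by
    rw [hterm, mul_inv_cancel]
    congr 1
    simp [h.one_left, Nat.card_eq_fintype_card]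
  have key := congrArg Φ hE2
  rw [hΦadd, hΦadd, hΦsub, hΦsub, hΦsub, hΦ0, main] at key
  have hac : ∀ e, B g₂ e = (B g e * B g₁ e)⁻¹ := fun e => eq_inv_of_mul_eq_one_right (habc e)
  have hfin : ∀ (w : Q → kˣ), (∀ e, w e ^ 3 = 1) → (∀ e, w e = B g e) → False := fun w h3 hw =>
    hv (h.three _ _ (by rw [← hw e₀]; exact h3 e₀))
  have n1 : Φ (π (g₁ * g₁)) = 0 := hvan _ fun hh => by
    have hab : ∀ e, B g e = B g₁ e := fun e => by
      have h1 := hh e
      rw [h.left g₁ g₁, ← pow_two] at h1
      have h2 : B (g * g₁⁻¹) e ^ 2 = 1 := by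
        rw [h.left, h.inv_left, mul_pow, inv_pow, h1, mul_inv_cancel]
      have h3 := h.two _ _ h2
      rwa [h.left, h.inv_left, mul_inv_eq_one] at h3
    refine hfin (fun e => B g e) (fun e => ?_) fun _ => rfl
    have h1 := ha e
    rw [hac, hab (σ e), hb, ← hab, eq_inv_iff_mul_eq_one] at h1
    rw [pow_succ, pow_two, mul_assoc]; exact h1
  have n2 : ∀ w, w = g * g₂ ∨ w = g₂ * g → Φ (π w) = 0 := fun w hw => hvan _ fun hh => by
    have hac' : ∀ e, B g e = B g₂ e := fun e => by
      have h1 := hh e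
      rcases hw with rfl | rfl
      · rw [h.left g g₂, pow_two] at h1
        exact mul_left_cancel h1
      · rw [h.left g₂ g, pow_two] at h1
        exact mul_right_cancel h1
    refine hfin (fun e => B g e) (fun e => ?_) fun _ => rfl
    have hinv : B g (σ e) = B g e := by rw [ha, ← hac']
    have h1 := habc (σ e)
    rw [hb, ← hac' (σ e), hinv] at h1
    rw [pow_succ, pow_two]; exact h1
  have n3 : ∀ w, w = g₁ * g₂ ∨ w = g₂ * g₁ → Φ (π w) = 0 := fun w hw => hvan _ fun hh => by
    refine hfin (fun e => B g e) (fun e => ?_) fun _ => rfl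
    have h1 := hh e
    have h2 : B w e = B g₁ e * B g₂ e := by
      rcases hw with rfl | rfl
      · exact h.left g₁ g₂ e
      · rw [h.left g₂ g₁, mul_comm]
    rw [h2] at h1
    have h3 := habc e
    rw [mul_assoc, ← h1] at h3
    rw [pow_succ']; exact h3
  rw [n1, n2 _ (Or.inl rfl), n2 _ (Or.inr rfl), n3 _ (Or.inl rfl), n3 _ (Or.inr rfl)] at key
  simp only [sub_zero, add_zero] at key
  have h1 : π (g * g) = 0 := by
    have := congrArg ((Nat.card Q : k)⁻¹ • ·) key
    rwa [smul_smul, inv_mul_cancel₀ hQ0, one_smul, smul_zero] at this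
  have h2 := congrArg (· * π (g * g)⁻¹) h1
  simp only [← map_mul, mul_inv_cancel, map_one, zero_mul] at h2
  exact one_ne_zero h2

end Pairing

variable {X : Type u} [Group X] [Finite X] {V : Type v} [CommGroup V] [Finite V]
  {k : Type w} [Field k] [IsAlgClosed k] {r : ℕ} [hr : Fact r.Prime] [CharP k r]
  {K : Subgroup X} [hKn : K.Normal] {s t : X} {ρ : X →* MulAut V}

/-- Normal subgroups of class two of order prime to `r` are abelian. -/
theorem IsModule.class_two (h : IsModule ρ K s t r) (Q : Subgroup X) [hQn : Q.Normal] (hQK : Q ≤ K)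
    (hQ0 : (Nat.card Q : k) ≠ 0)
    (hQ2 : ∀ a ∈ Q, ∀ b ∈ Q, ∀ c ∈ Q, Commute ⁅a, b⁆ c) : ⁅Q, Q⁆ = ⊥ := by
  set Z := ⁅Q, Q⁆ with hZ
  have hZQ : Z ≤ Q := commutator_le_self Q
  have hZcent : ∀ z ∈ Z, ∀ c ∈ Q, Commute z c := fun z hz c hc => by
    have hle : Z ≤ centralizer (Q : Set X) := commutator_le.2 fun a ha b hb =>
      mem_centralizer_iff.2 fun c hc => (hQ2 a ha b hb c hc).eq.symm
    exact ((mem_centralizer_iff.1 (hle hz)) c hc).symm
  haveI : Z.Normal := inferInstance
  have hZc : IsMulCommutative Z := ⟨⟨fun a b => Subtype.ext (hZcent a a.2 b (hZQ b.2))⟩⟩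
  have hZ0 : (Nat.card Z : k) ≠ 0 := fun h0 => hQ0 (by
    obtain ⟨c, hc⟩ := card_dvd_of_le hZQ
    rw [hc, Nat.cast_mul, h0, zero_mul])
  have hw := h.weights (k := k) (Q := Z) (hZQ.trans hQK) hZc hZ0
  suffices hone : ∀ χ ∈ wts (k := k) ρ Z, ∀ a b : Q,
      χ ⟨⁅(a : X), (b : X)⁆, commutator_mem_commutator a.2 b.2⟩ = 1 by
    rw [eq_bot_iff, hZ, commutator_le]
    intro a ha b hb
    rw [mem_bot]
    refine h.faith_contra (k := k) ((hZQ.trans hQK) (commutator_mem_commutator ha hb)) K.one_mem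
      (ext_of_wts (Q := Z) ρ hZ0 fun χ hχ f hf => ?_)
    rw [map_one, Module.End.one_apply]
    have h1 := hf ⟨⁅a, b⁆, commutator_mem_commutator ha hb⟩
    rw [hone χ hχ ⟨a, ha⟩ ⟨b, hb⟩, Units.val_one, one_smul] at h1
    exact h1
  intro χ hχ
  set c := (MulAut.conjNormal : X →* MulAut Q) with hc
  let B : Q → Q → kˣ := fun a b => χ ⟨⁅(a : X), (b : X)⁆, commutator_mem_commutator a.2 b.2⟩
  show ∀ a b : Q, B a b = 1
  have hBconj : ∀ g : X, actHom Z g χ = χ → ∀ a b, B (c g a) (c g b) = B a b := fun g hg a b => by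
    show χ _ = χ _
    have h1 := DFunLike.congr_fun hg
      ⟨⁅((c g a : Q) : X), ((c g b : Q) : X)⁆, commutator_mem_commutator (c g a).2 (c g b).2⟩
    rw [← h1, actHom_apply]
    congr 1
    apply Subtype.ext
    rw [MulAut.conjNormal_apply]
    simp only [hc, MulAut.conjNormal_apply, inv_inv, commutatorElement_def]
    group
  have hpow : ∀ a b (n : ℕ), (n = 2 ∨ n = 3) → B a b ^ n = 1 → B a b = 1 := fun a b n hn hp =>
    eq_one_of_units_pow h.fpf (hZQ.trans hQK) χ _ (n := n) (fun p hpr hd => by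
      rcases hn with rfl | rfl
      · exact Or.inl ((Nat.prime_dvd_prime_iff_eq hpr Nat.prime_two).1 hd)
      · exact Or.inr ((Nat.prime_dvd_prime_iff_eq hpr Nat.prime_three).1 hd)) hp
  have hm : ∀ g g' z, c g (c g' z) = c (g * g') z := fun g g' z => by rw [map_mul]; rfl
  have hc1 : ∀ z, c 1 z = z := fun z => by rw [map_one]; rfl
  have hP : Pairing B (c s) :=
  { left := fun x y z => by
      show χ _ = χ _ * χ _
      rw [← map_mul]
      congr 1
      apply Subtype.ext
      show ⁅((x * y : Q) : X), (z : X)⁆ = ⁅(x : X), (z : X)⁆ * ⁅(y : X), (z : X)⁆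
      have h1 := (hZcent ⁅(y : X), (z : X)⁆ (commutator_mem_commutator y.2 z.2) (x : X) x.2).symm.eq
      have e : ⁅((x * y : Q) : X), (z : X)⁆ = x * ⁅(y : X), (z : X)⁆ * (x : X)⁻¹ * ⁅(x : X), (z : X)⁆ := by
        rw [Subgroup.coe_mul]; simp only [commutatorElement_def]; group
      rw [e, h1, mul_inv_cancel_right]
      exact hZcent _ (commutator_mem_commutator y.2 z.2) _
        (hZQ (commutator_mem_commutator x.2 z.2))
    skew := fun x y => by
      show χ _ = (χ _)⁻¹
      rw [← map_inv]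
      congr 1
      exact Subtype.ext (commutatorElement_inv (x : X) (y : X)).symm
    sigma3 := fun x => by rw [hm, hm, mul_assoc, h.fpf.s3, hc1]
    two := fun a b => hpow a b 2 (Or.inl rfl)
    three := fun a b => hpow a b 3 (Or.inr rfl)
    fixedPart := fun x => by
      haveI : Fact (Nat.Prime 3) := ⟨Nat.prime_three⟩
      set m := x * c s x * c s (c s x) with hmdef
      have hsm : (c s m : Q) = c s x * c s (c s x) * x := by
        rw [hmdef, map_mul, map_mul]
        congr 1
        rw [hm, hm, mul_assoc, h.fpf.s3, hc1]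
      have h1 : s * (m : X) * s⁻¹ * (m : X)⁻¹ ∈ Z := by
        have h2 : ((c s m : Q) : X) = s * (m : X) * s⁻¹ := by rw [hc, MulAut.conjNormal_apply]
        rw [← h2, hsm, hmdef]
        set p := c s x * c s (c s x)
        have e : ((p * x : Q) : X) * ((x * c s x * c s (c s x) : Q) : X)⁻¹ = ⁅(p : X), (x : X)⁆ := by
          simp only [p, Subgroup.coe_mul, commutatorElement_def]; group
        rw [e]
        exact commutator_mem_commutator p.2 x.2
      obtain ⟨d, hd, hdZ⟩ := exists_fixed_in_coset h.fpf.card_zpowers_s hZQ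
        (by rw [normalizer_eq_top]; exact le_top) (by rw [normalizer_eq_top]; exact le_top)
        (h.fpf.not_three_dvd (hZQ.trans hQK)) m.2 (fun b hb => by
          obtain ⟨i, rfl⟩ := mem_zpowers_iff.1 hb
          have hcom : Commute (s : X ⧸ Z) ((m : X) : X ⧸ Z) := by
            have h3 := (QuotientGroup.eq_one_iff _).2 h1
            simp only [QuotientGroup.mk_mul, QuotientGroup.mk_inv] at h3
            exact mul_inv_eq_iff_eq_mul.1 (mul_inv_eq_one.1 h3)
          rw [← QuotientGroup.eq_one_iff]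
          simp only [QuotientGroup.mk_mul, QuotientGroup.mk_inv, QuotientGroup.mk_zpow]
          rw [(hcom.zpow_left i).eq]
          group)
      refine ⟨⟨d, hd.1⟩, Subtype.ext ?_, fun z => ?_⟩
      · have h3 : Commute s d := mem_centralizer_iff.1 hd.2 s (mem_zpowers s)
        rw [hc, MulAut.conjNormal_apply]
        show s * d * s⁻¹ = d
        rw [h3.eq, mul_inv_cancel_right]
      · show χ _ = χ _
        congr 1
        apply Subtype.ext
        show ⁅(m : X), (z : X)⁆ = ⁅d, (z : X)⁆
        have hd' : d = (m : X) * ((m : X)⁻¹ * d) := (mul_inv_cancel_left _ _).symm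
        set n := (m : X)⁻¹ * d
        rw [hd']
        have h4 := (hZcent n hdZ (z : X) z.2).eq
        simp only [commutatorElement_def, mul_inv_rev]
        calc (m : X) * z * (m : X)⁻¹ * (z : X)⁻¹
            = (m : X) * (z * n) * (n⁻¹ * (m : X)⁻¹) * (z : X)⁻¹ := by group
          _ = _ := by rw [← h4]; group }
  have hinv1 : ∀ g : Q, actHom Z (g : X) χ = χ := fun g => MonoidHom.ext fun z => by
    rw [actHom_apply]
    congr 1
    apply Subtype.ext
    rw [MulAut.conjNormal_apply, inv_inv]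
    have := (hZcent z z.2 (g : X) g.2).eq
    rw [mul_assoc, this, inv_mul_cancel_left]
  obtain ⟨f₀, hf₀, hf₀0⟩ := Submodule.exists_mem_ne_zero_of_ne_bot hχ
  have hres : ∀ g : X, actHom Z g χ = χ →
      ∀ f ∈ wtSpace (k := k) ρ Z χ, contra ρ g f ∈ wtSpace (k := k) ρ Z χ := fun g hg f hf => by
    have := wt_move ρ g hf
    rwa [hg] at this
  have hcomm : ∀ (a b : Q), ∀ f ∈ wtSpace (k := k) ρ Z χ,
      contra ρ ⁅(a : X), (b : X)⁆ f = ((B a b : kˣ) : k) • f := fun a b f hf =>
    hf ⟨_, commutator_mem_commutator a.2 b.2⟩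
  have hp : ∀ g : X, actHom Z g χ ≠ χ → ∀ f ∈ wtSpace (k := k) ρ Z χ,
      proj ρ Z χ (contra ρ g f) = 0 := fun g hg f hf =>
    (proj_of_mem ρ hZ0 (wt_move ρ g hf)).2 (Ne.symm hg)
  have hp1 : ∀ g : X, actHom Z g χ = χ → ∀ f ∈ wtSpace (k := k) ρ Z χ,
      proj ρ Z χ (contra ρ g f) = contra ρ g f := fun g hg f hf =>
    (proj_of_mem ρ hZ0 (hres g hg f hf)).1 rfl
  have hlin : ∀ a b : Additive V →+ k, proj ρ Z χ (a + b) = proj ρ Z χ a + proj ρ Z χ b := by
    intro a b
    unfold proj
    simp only [map_add, smul_add, Finset.sum_add_distrib]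
  have hz : proj ρ Z χ (0 : Additive V →+ k) = 0 := by unfold proj; simp
  by_cases htriv : ∃ i : ℕ, actHom Z s χ = χ ∧ actHom Z (s ^ i * t) χ = χ
  · obtain ⟨i, h1, h2⟩ := htriv
    have := (hw.shift i).triv χ h1 h2
    intro a b
    show χ _ = 1
    rw [this]; rfl
  push Not at htriv
  rcases hw.stab χ hχ with hsχ | ⟨i, hiχ⟩
  · -- the element of order three
    have ht : ∀ j : ℕ, actHom Z (s ^ j * t) χ ≠ χ := fun j => htriv j hsχ
    have hssχ : actHom Z (s * s) χ = χ := by rw [← act_mul, hsχ, hsχ]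
    let π : Q →* Module.End k (wtSpace (k := k) ρ Z χ) :=
      { toFun := fun g => (contra ρ (g : X)).restrict (hres _ (hinv1 g))
        map_one' := LinearMap.ext fun f => Subtype.ext (by
          show contra ρ ((1 : Q) : X) (f : Additive V →+ k) = f
          rw [Subgroup.coe_one, map_one]; rfl)
        map_mul' := fun a b => LinearMap.ext fun f => Subtype.ext (by
          show contra ρ ((a * b : Q) : X) (f : Additive V →+ k) =
            contra ρ (a : X) (contra ρ (b : X) f)
          rw [contra_contra, Subgroup.coe_mul]) }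
    letI : AddCommGroup (wtSpace (k := k) ρ Z χ) := Submodule.addCommGroup _
    letI : Ring (Module.End k (wtSpace (k := k) ρ Z χ)) := Module.End.instRing
    haveI : Nontrivial (wtSpace (k := k) ρ Z χ) := Submodule.nontrivial_iff_ne_bot.2 hχ
    refine fun a b => hP.eq_one_of_sigma (R := Module.End k (wtSpace (k := k) ρ Z χ)) hQ0 (fun x y => hBconj s hsχ x y) (fun a b ha hb => ?_) π
      ((contra ρ s).restrict (hres s hsχ)) (fun x => ?_) ?_ (fun e x => ?_) a b
    · have hcs : ∀ x : Q, c s x = x → Commute s (x : X) := fun x hx => by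
        have h1 := congrArg Subtype.val hx
        rw [hc, MulAut.conjNormal_apply] at h1
        exact mul_inv_eq_iff_eq_mul.1 h1
      have hab := h.fpf.centralizer_s_comm (hQK a.2) (hQK b.2) (hcs a ha) (hcs b hb)
      show χ _ = 1
      rw [← map_one χ]
      congr 1
      exact Subtype.ext (commutatorElement_eq_one_iff_mul_comm.2 hab.eq)
    · refine LinearMap.ext fun f => Subtype.ext ?_
      show contra ρ s (contra ρ (x : X) (f : Additive V →+ k)) =
        contra ρ ((c s x : Q) : X) (contra ρ s (f : Additive V →+ k))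
      rw [contra_contra, contra_contra, hc, MulAut.conjNormal_apply, inv_mul_cancel_right]
    · refine LinearMap.ext fun f => Subtype.ext ?_
      show (f : Additive V →+ k) + contra ρ s f + contra ρ s (contra ρ s f) = 0
      have h0 := congrArg (proj ρ Z χ) (h.contra_norm (f : Additive V →+ k))
      rw [hlin, hlin, hlin, hlin, hlin, hz, (proj_of_mem ρ hZ0 f.2).1 rfl, hp1 s hsχ _ f.2,
        hp1 _ hssχ _ f.2, hp t (by simpa using ht 0) _ f.2, hp (s * t) (by simpa using ht 1) _ f.2,
        hp (s * s * t) (by simpa [pow_two] using ht 2) _ f.2] at h0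
      simp only [add_zero] at h0
      rw [contra_contra]; exact h0
    · refine LinearMap.ext fun f => Subtype.ext ?_
      show contra ρ (e : X) (contra ρ (x : X) (contra ρ ((e⁻¹ : Q) : X) (f : Additive V →+ k))) =
        ((B e x : kˣ) : k) • contra ρ (x : X) (f : Additive V →+ k)
      rw [contra_contra, contra_contra, Subgroup.coe_inv,
        show (e : X) * x * (e : X)⁻¹ = ⁅(e : X), (x : X)⁆ * x by
          rw [commutatorElement_def]; group, ← contra_contra]
      exact hcomm e x _ (hres _ (hinv1 x) _ f.2)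
  · -- an involution
    have hsχ : actHom Z s χ ≠ χ := fun e => htriv i e hiχ
    set u := s ^ i * t with hu
    have hfpf := h.fpf.shift i
    rw [← hu] at hfpf
    have hu1 : actHom Z (s * u) χ ≠ χ := fun e => hsχ (by rwa [← act_mul, hiχ] at e)
    have hu2 : actHom Z (s * s * u) χ ≠ χ := fun e => hsχ (by
      rw [← act_mul, hiχ] at e
      have h2 := congrArg (actHom Z s) e
      rw [act_mul, hfpf.s3, act_one] at h2
      exact h2.symm)
    have hs2 : actHom Z (s * s) χ ≠ χ := fun e => hsχ (by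
      have h2 := congrArg (actHom Z s) e
      rw [act_mul, hfpf.s3, act_one] at h2
      exact h2.symm)
    have hneg : ∀ f ∈ wtSpace (k := k) ρ Z χ, contra ρ u f = -f := fun f hf => by
      have hmod : IsModule ρ K s u r :=
        ⟨hfpf, h.exp, h.faith, fun v h1 h2 => h.fixed v h1 (by
          have h3 : ∀ j : ℕ, ρ (s ^ j) v = v := by
            intro j
            induction j with
            | zero => rw [pow_zero, map_one]; rfl
            | succ j ih => rw [pow_succ, map_mul, MulAut.mul_apply, h1, ih]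
          have h4 : t = s ^ (2 * i) * u := by
            rw [hu, ← mul_assoc, ← pow_add, show 2 * i + i = 3 * i by omega, pow_mul,
              h.fpf.pow_three, one_pow, one_mul]
          rw [h4, map_mul, MulAut.mul_apply, h2, h3])⟩
      have h0 := congrArg (proj ρ Z χ) (hmod.contra_norm f)
      rw [hlin, hlin, hlin, hlin, hlin, hz, (proj_of_mem ρ hZ0 hf).1 rfl, hp s hsχ _ hf,
        hp _ hs2 _ hf, hp1 u hiχ _ hf, hp _ hu1 _ hf, hp _ hu2 _ hf] at h0
      simp only [add_zero] at h0
      exact eq_neg_of_add_eq_zero_right h0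
    have heq : ∀ x : Q, ∀ f ∈ wtSpace (k := k) ρ Z χ,
        contra ρ ((c u x : Q) : X) f = contra ρ (x : X) f := fun x f hf => by
      rw [hc, MulAut.conjNormal_apply, hfpf.tinv, ← contra_contra, ← contra_contra, hneg f hf,
        map_neg, map_neg, hneg _ (hres _ (hinv1 x) _ hf), neg_neg]
    have hequal : ∀ x z, B (c u x) z = B x z := fun x z => by
      have key : ∀ (p : Q), ∀ f ∈ wtSpace (k := k) ρ Z χ, contra ρ ⁅(p : X), (z : X)⁆ f =
          contra ρ (p : X) (contra ρ (z : X) (contra ρ (p : X)⁻¹ (contra ρ (z : X)⁻¹ f))) := by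
        intro p f _
        rw [contra_contra, contra_contra, contra_contra, commutatorElement_def]
      have hzinv : contra ρ (z : X)⁻¹ f₀ ∈ wtSpace (k := k) ρ Z χ := by
        have := hres ((z⁻¹ : Q) : X) (hinv1 z⁻¹) _ hf₀
        rwa [Subgroup.coe_inv] at this
      have hinv : contra ρ ((c u x : Q) : X)⁻¹ (contra ρ (z : X)⁻¹ f₀) =
          contra ρ (x : X)⁻¹ (contra ρ (z : X)⁻¹ f₀) := by
        have := heq x⁻¹ _ hzinv
        rwa [map_inv, Subgroup.coe_inv, Subgroup.coe_inv] at this
      have hmem : contra ρ (z : X) (contra ρ (x : X)⁻¹ (contra ρ (z : X)⁻¹ f₀)) ∈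
          wtSpace (k := k) ρ Z χ := by
        refine hres _ (hinv1 z) _ ?_
        have := hres ((x⁻¹ : Q) : X) (hinv1 x⁻¹) _ hzinv
        rwa [Subgroup.coe_inv] at this
      have e := key (c u x) f₀ hf₀
      rw [hinv, heq x _ hmem, ← key x f₀ hf₀, hcomm _ _ _ hf₀, hcomm _ _ _ hf₀] at e
      exact Units.ext (smul_left_injective k hf₀0 e)
    refine fun a b => hP.eq_one_of_tau (c u) (fun x => ?_) (fun x => ?_) hequal (fun d hd => ?_)
      (fun x y => ?_) a b
    · rw [hm, hfpf.t2, hc1]
    · rw [hm, hm, hm, hfpf.ts]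
    · apply Subtype.ext
      rw [hc, MulAut.conjNormal_apply, Subgroup.coe_inv]
      refine hfpf.t_inverts (hQK d.2) ?_
      have h1 := congrArg Subtype.val hd
      rw [hc, MulAut.conjNormal_apply] at h1
      exact mul_inv_eq_iff_eq_mul.1 h1
    · set z : Z := ⟨⁅(x : X), (y : X)⁆, commutator_mem_commutator x.2 y.2⟩ with hz'
      set d := (MulAut.conjNormal : X →* MulAut Z) with hd
      letI : CommGroup Z := { (inferInstance : Group Z) with mul_comm := mul_comm' }
      have hdm : ∀ g g' w, d g (d g' w) = d (g * g') w := fun g g' w => by rw [map_mul]; rfl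
      have hcd : ∀ g, ∀ p q : Q, χ (d g ⟨⁅(p : X), (q : X)⁆, commutator_mem_commutator p.2 q.2⟩) =
          B (c g p) (c g q) := fun g p q => by
        show χ _ = χ _
        congr 1
        apply Subtype.ext
        rw [hd, MulAut.conjNormal_apply]
        simp only [hc, MulAut.conjNormal_apply, commutatorElement_def]
        group
      let P : Z := z * d s z * d (s * s) z
      have hPfix : d s P = P := by
        simp only [P, map_mul (d s), hdm, hfpf.s3]
        rw [show d 1 z = z by rw [map_one]; rfl]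
        generalize d s z = a1, d (s * s) z = a2
        ac_rfl
      have hPs : Commute s (P : X) := by
        have h2 := congrArg Subtype.val hPfix
        rw [hd, MulAut.conjNormal_apply] at h2
        exact mul_inv_eq_iff_eq_mul.1 h2
      have hPu : d u P = P⁻¹ := by
        apply Subtype.ext
        rw [hd, MulAut.conjNormal_apply, Subgroup.coe_inv]
        exact hfpf.t_inverts ((hZQ.trans hQK) P.2) hPs
      have hχP : χ P = 1 := by
        have h1 := DFunLike.congr_fun hiχ P
        rw [actHom_apply, hfpf.tinv, ← hd, hPu, map_inv] at h1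
        refine eq_one_of_units_pow h.fpf (hZQ.trans hQK) χ P (n := 2)
          (fun p hpr hdv => Or.inl ((Nat.prime_dvd_prime_iff_eq hpr Nat.prime_two).1 hdv)) ?_
        rw [pow_two]; exact inv_eq_iff_mul_eq_one.1 h1
      simp only [P, hz', map_mul χ, hcd] at hχP
      rw [hm, hm]
      exact hχP

end Cfsg.Lib.Solv.S3
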