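import Cfsg.Agent.Lib.Solv.S3.ClassTwo
import Cfsg.Agent.Lib.Solv.Cores

/-!
Coprime fixed-point-free action of the symmetric group of degree three: nilpotent derived subgroup.
-/

set_option autoImplicit false

namespace Cfsg.Lib.Solv.S3

open Subgroup
open scoped commutatorElement

universe u v

/-- Irreducible faithful module: the group is abelian. -/
theorem core {X : Type u} [Group X] [Finite X] {V : Type v} [CommGroup V] [Finite V] [Nontrivial V]
    {r : ℕ} [hr : Fact r.Prime] {K : Subgroup X} [hKn : K.Normal] {s t : X} {ρ : X →* MulAut V}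
    (h : IsModule ρ K s t r) (hsol : Group.IsSolvable K)
    (hirr : ∀ U : Subgroup V, (∀ g : X, ∀ v ∈ U, ρ g v ∈ U) → U = ⊥ ∨ U = ⊤) :
    ⁅K, K⁆ = ⊥ := by
  set F := (Cfsg.fittingSubgroup ↥K).map K.subtype with hF
  have hFK : F ≤ K := map_subtype_le _
  haveI : F.Normal := ConjAct.normal_of_characteristic_of_normal
  -- the Fitting subgroup has order prime to the characteristic
  set R := (Cfsg.pCore r ↥K).map K.subtype with hR
  haveI : R.Normal := ConjAct.normal_of_characteristic_of_normal
  have hRr : IsPGroup r R := (isPGroup_pCore r).map _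
  have hR1 : Cfsg.pCore r ↥K = ⊥ := by
    let U : Subgroup V :=
      { carrier := {v | ∀ x ∈ R, ρ x v = v}
        one_mem' := fun x _ => map_one _
        mul_mem' := fun {a b} ha hb x hx => by rw [map_mul, ha x hx, hb x hx]
        inv_mem' := fun {a} ha x hx => by rw [map_inv, ha x hx] }
    have hUinv : ∀ g : X, ∀ v ∈ U, ρ g v ∈ U := fun g v hv x hx => by
      have h2 := hv (g⁻¹ * x * g) ((inferInstance : R.Normal).conj_mem' x hx g)
      calc ρ x (ρ g v) = ρ g (ρ (g⁻¹ * x * g) v) := by
            rw [← MulAut.mul_apply, ← MulAut.mul_apply, ← map_mul, ← map_mul]; congr 2; group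
        _ = _ := by rw [h2]
    have hUne : U ≠ ⊥ := by
      letI := MulAction.compHom V (ρ.comp R.subtype)
      have hVr : IsPGroup r V := fun v => ⟨1, by rw [pow_one]; exact h.exp v⟩
      obtain ⟨i, hi⟩ := IsPGroup.iff_card.1 hVr
      have hi0 : i ≠ 0 := fun e => by
        have := Finite.one_lt_card (α := V)
        rw [hi, e, pow_zero] at this
        exact lt_irrefl _ this
      obtain ⟨b, hb, hb1⟩ := hRr.exists_fixed_point_of_prime_dvd_card_of_fixed_point V
        (hi ▸ dvd_pow_self r hi0) (a := (1 : V)) (fun x => map_one (ρ (x : X)))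
      intro hbot
      have : b ∈ U := fun x hx => hb ⟨x, hx⟩
      rw [hbot, mem_bot] at this
      exact hb1 this.symm
    have hUtop := (hirr U hUinv).resolve_left hUne
    rw [eq_bot_iff]
    intro x hx
    rw [mem_bot]
    refine Subtype.ext (h.faith _ x.2 fun v => ?_)
    have hvU : v ∈ U := hUtop ▸ mem_top v
    exact hvU (x : X) (mem_map_of_mem _ hx)
  have hrF : ¬ r ∣ Nat.card F := by
    rw [hF, Nat.card_congr (equivMapOfInjective _ _ K.subtype_injective).symm.toEquiv]
    intro hd
    obtain ⟨x, hx⟩ := exists_prime_orderOf_dvd_card' (G := Cfsg.fittingSubgroup ↥K) r hd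
    have hz : zpowers (x : K) ≤ Cfsg.fittingSubgroup ↥K := zpowers_le.2 x.2
    have h2 := le_pCore_of_le_fitting hz (IsPGroup.of_card (n := 1) (by
      rw [Nat.card_zpowers, orderOf_coe, hx, pow_one]) : IsPGroup r (zpowers (x : K)))
    rw [hR1, le_bot_iff, zpowers_eq_bot] at h2
    rw [← orderOf_coe, h2, orderOf_one] at hx
    exact hr.out.ne_one hx.symm
  let k := AlgebraicClosure (ZMod r)
  haveI : CharP k r := charP_of_injective_algebraMap (algebraMap (ZMod r) k).injective r
  have hk : ∀ Q : Subgroup X, Q ≤ F → (Nat.card Q : k) ≠ 0 := fun Q hQ h0 =>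
    hrF (((CharP.cast_eq_zero_iff k r _).1 h0).trans (card_dvd_of_le hQ))
  have hA : ∀ Q : Subgroup X, Q.Normal → Q ≤ F → IsMulCommutative Q →
      ∀ g ∈ K, ∀ x ∈ Q, g * x = x * g := fun Q hQn hQF hQc g hg x hx => by
    haveI := hQn
    exact h.abelian_central (k := k) hsol (hQF.trans hFK) hQc (hk Q hQF) hg hx
  have hB : ∀ Q : Subgroup X, Q.Normal → Q ≤ F → (∀ a ∈ Q, ∀ b ∈ Q, ∀ c ∈ Q, Commute ⁅a, b⁆ c) →
      IsMulCommutative Q := fun Q hQn hQF hQ2 => by
    haveI := hQn
    have := h.class_two (k := k) Q (hQF.trans hFK) (hk Q hQF) hQ2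
    exact ⟨⟨fun a b => Subtype.ext (commutatorElement_eq_one_iff_mul_comm.1 (mem_bot.1
      (this ▸ commutator_mem_commutator a.2 b.2)))⟩⟩
  haveI hFnil : Group.IsNilpotent F := by
    haveI := fitting_isNilpotent (G := ↥K)
    exact Group.nilpotent_of_mulEquiv (equivMapOfInjective _ _ K.subtype_injective)
  -- the second centre of `F` is central
  set Z₁ := (Subgroup.upperCentralSeries ↥F 1).map F.subtype with hZ1
  set Z₂ := (Subgroup.upperCentralSeries ↥F 2).map F.subtype with hZ2
  haveI : Z₁.Normal := ConjAct.normal_of_characteristic_of_normal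
  haveI : Z₂.Normal := ConjAct.normal_of_characteristic_of_normal
  have hZ₁c : ∀ x ∈ Z₁, ∀ y ∈ F, x * y = y * x := by
    rintro _ ⟨x, hx, rfl⟩ y hy
    rw [Subgroup.upperCentralSeries_one] at hx
    exact (congrArg Subtype.val (mem_center_iff.1 hx ⟨y, hy⟩)).symm
  have hZ₁K : ∀ g ∈ K, ∀ x ∈ Z₁, g * x = x * g :=
    hA Z₁ inferInstance (map_subtype_le _) ⟨⟨fun a b => Subtype.ext
      (hZ₁c a a.2 b (map_subtype_le _ b.2))⟩⟩
  have hZ₂c : ∀ a ∈ Z₂, ∀ b ∈ Z₂, ∀ c ∈ Z₂, Commute ⁅a, b⁆ c := by
    rintro _ ⟨a, ha, rfl⟩ b hb c hc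
    refine (hZ₁K c (hFK (map_subtype_le _ hc)) _ ?_).symm
    refine ⟨⁅a, ⟨b, map_subtype_le _ hb⟩⁆, ?_, map_commutatorElement _ _ _⟩
    exact (Subgroup.mem_upperCentralSeries_succ_iff.1 ha) ⟨b, map_subtype_le _ hb⟩
  have hZ₂K : ∀ g ∈ K, ∀ x ∈ Z₂, g * x = x * g :=
    hA Z₂ inferInstance (map_subtype_le _) (hB Z₂ inferInstance (map_subtype_le _) hZ₂c)
  have h21 : Subgroup.upperCentralSeries ↥F 2 ≤ Subgroup.upperCentralSeries ↥F 1 := fun x hx => by
    rw [Subgroup.upperCentralSeries_one, mem_center_iff]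
    exact fun y => Subtype.ext (hZ₂K y (hFK y.2) x (mem_map_of_mem _ hx))
  have htop : Subgroup.upperCentralSeries ↥F 1 = ⊤ := by
    obtain ⟨n, hn⟩ := hFnil.nilpotent
    have : ∀ m, Subgroup.upperCentralSeries ↥F m ≤ Subgroup.upperCentralSeries ↥F 1 := by
      intro m
      induction m with
      | zero => simp
      | succ m ih =>
        intro x hx
        refine h21 (Subgroup.mem_upperCentralSeries_succ_iff.2 fun y => ?_)
        exact ih (Subgroup.mem_upperCentralSeries_succ_iff.1 hx y)
    exact top_le_iff.1 (hn ▸ this n)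
  have hZF : Z₁ = F := by rw [hZ1, htop, ← MonoidHom.range_eq_map, range_subtype]
  rw [hZF] at hZ₁K
  have hKF : K ≤ F := fun g hg => by
    refine ⟨⟨g, hg⟩, ?_, rfl⟩
    haveI := hsol
    refine centralizer_fitting_le (mem_centralizer_iff.2 fun x hx => Subtype.ext ?_)
    exact (hZ₁K g hg x (mem_map_of_mem _ hx)).symm
  rw [eq_bot_iff, commutator_le]
  intro a ha b hb
  rw [mem_bot, commutatorElement_eq_one_iff_mul_comm]
  exact hZ₁K a ha b (hKF hb)

theorem derived_nilpotent_aux : ∀ (n : ℕ) (X : Type u) [Group X] [Finite X], Nat.card X ≤ n →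
    ∀ (K : Subgroup X) [K.Normal] (s t : X), IsFpf K s t → Group.IsSolvable K →
      Group.IsNilpotent ↥⁅K, K⁆ := by
  intro n
  induction n with
  | zero => intro X _ _ hn; exact absurd hn (Nat.not_le.2 Nat.card_pos)
  | succ n ih =>
    intro X _ _ hn K hKn s t h hsol
    by_cases hK : K = ⊥
    · subst hK
      rw [commutator_bot_left]
      infer_instance
    obtain ⟨V, hVn, hVK, hVne, hVmin⟩ := exists_minimal_normal_le hK
    haveI := hVn
    obtain ⟨hVc, r, hr, -, hexp⟩ :=
      minimal_normal_elementary hVne (solvable_of_le hVK hsol) hVmin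
    haveI := Fact.mk hr
    letI : CommGroup V := { (inferInstance : Group V) with mul_comm := mul_comm' }
    haveI : Nontrivial V := V.nontrivial_iff_ne_bot.2 hVne
    set q := QuotientGroup.mk' V with hq
    haveI : (K.map q).Normal := Subgroup.Normal.map inferInstance _ (QuotientGroup.mk'_surjective V)
    have hind : Group.IsNilpotent ↥⁅K.map q, K.map q⁆ := ih (X ⧸ V) (by
      rw [← index_eq_card]
      have h2 := V.card_mul_index
      have h3 := (one_lt_card_iff_ne_bot V).2 hVne
      nlinarith) (K.map q) _ _ (h.map_quotient V hVK) (solvable_map _ hsol)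
    set C := K ⊓ centralizer (V : Set X) with hC
    haveI : C.Normal := inferInstance
    have hker : C ≤ (MulAut.conjNormal : X →* MulAut V).ker := fun x hx => by
      rw [MonoidHom.mem_ker]
      refine MulEquiv.ext fun v => Subtype.ext ?_
      rw [MulAut.conjNormal_apply, ← (mem_centralizer_iff.1 hx.2) v v.2, mul_inv_cancel_right]
      rfl
    set p := QuotientGroup.mk' C with hp
    haveI : (K.map p).Normal := Subgroup.Normal.map inferInstance _ (QuotientGroup.mk'_surjective C)
    let ρ : X ⧸ C →* MulAut V := QuotientGroup.lift C MulAut.conjNormal hker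
    have hρ : ∀ (x : X) (v : V), ((ρ (x : X ⧸ C) v : V) : X) = x * v * x⁻¹ := fun x v =>
      MulAut.conjNormal_apply x v
    have hcomm : ∀ (x : X) (v : V), ρ (x : X ⧸ C) v = v → Commute x (v : X) := fun x v hv => by
      have h2 := congrArg Subtype.val hv
      rw [hρ] at h2
      exact mul_inv_eq_iff_eq_mul.1 h2
    have hmod : IsModule ρ (K.map p) (s : X ⧸ C) (t : X ⧸ C) r :=
    { fpf := h.map_quotient C inf_le_left
      exp := fun v => Subtype.ext (by simpa using hexp v v.2)
      faith := by
        rintro _ ⟨g, hg, rfl⟩ hfix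
        exact (QuotientGroup.eq_one_iff g).2
          ⟨hg, mem_centralizer_iff.2 fun v hv => (hcomm g ⟨v, hv⟩ (hfix ⟨v, hv⟩)).eq.symm⟩
      fixed := fun v h1 h2 => Subtype.ext (h.fpf v (hVK v.2) (hcomm s v h1) (hcomm t v h2)) }
    have hirr : ∀ U : Subgroup V, (∀ g : X ⧸ C, ∀ v ∈ U, ρ g v ∈ U) → U = ⊥ ∨ U = ⊤ := by
      intro U hU
      have hUn : (U.map V.subtype).Normal := ⟨by
        rintro _ ⟨v, hv, rfl⟩ g
        exact ⟨ρ (g : X ⧸ C) v, hU _ v hv, hρ g v⟩⟩
      rcases hVmin _ hUn (map_subtype_le _) with h2 | h2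
      · exact Or.inl ((map_eq_bot_iff_of_injective _ V.subtype_injective).1 h2)
      · refine Or.inr (map_injective V.subtype_injective ?_)
        rw [h2, ← MonoidHom.range_eq_map, range_subtype]
    have hcore := core hmod (solvable_map _ hsol) hirr
    rw [← map_commutator, Subgroup.map_eq_bot_iff, hp, QuotientGroup.ker_mk'] at hcore
    set D := ⁅K, K⁆ with hD
    rw [← map_commutator, ← hD] at hind
    let f : D →* ↥(D.map q) := q.subgroupMap D
    haveI := hind
    refine Subgroup.isNilpotent_of_ker_le_center f (fun x hx => ?_)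
    have hxV : (x : X) ∈ V := (QuotientGroup.eq_one_iff (x : X)).1 (congrArg Subtype.val hx)
    rw [mem_center_iff]
    intro y
    exact Subtype.ext ((mem_centralizer_iff.1 (hcore y.2).2) x hxV).symm

/-- The derived subgroup of the acted-on group is nilpotent. -/
theorem derived_nilpotent {X : Type u} [Group X] [Finite X] {K : Subgroup X} [K.Normal] {s t : X}
    (h : IsFpf K s t) (hsol : Group.IsSolvable K) : Group.IsNilpotent ↥⁅K, K⁆ :=
  derived_nilpotent_aux _ X le_rfl K s t h hsol

/-- The external form. -/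
theorem derived_nilpotent_of_action {G : Type u} [Group G] [Finite G] [Group.IsSolvable G]
    [MulDistribMulAction (Equiv.Perm (Fin 3)) G] (hcop : (Nat.card G).Coprime 6)
    (hfpf : ∀ g : G, (∀ a : Equiv.Perm (Fin 3), a • g = g) → g = 1) :
    Group.IsNilpotent ↥(_root_.commutator G) := by
  let φ := MulDistribMulAction.toMulAut (Equiv.Perm (Fin 3)) G
  let A := Equiv.Perm (Fin 3)
  let r : A := finRotate 3
  let w : A := Equiv.swap 0 1
  haveI : Finite (SemidirectProduct G A φ) := Finite.of_equiv _ SemidirectProduct.equivProd.symm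
  set inl := (SemidirectProduct.inl : G →* SemidirectProduct G A φ)
  set inr := (SemidirectProduct.inr : A →* SemidirectProduct G A φ)
  haveI : inl.range.Normal := by
    rw [show inl.range = SemidirectProduct.rightHom.ker from
      SemidirectProduct.range_inl_eq_ker_rightHom]
    infer_instance
  have hsol : Group.IsSolvable inl.range :=
    Group.isSolvable_of_surjective (f := inl.rangeRestrict) inl.rangeRestrict_surjective
  have hIs : IsFpf inl.range (inr r) (inr w) :=
  { s3 := by rw [← map_mul, ← map_mul, show r * (r * r) = 1 by decide, map_one]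
    t2 := by rw [← map_mul, show w * w = 1 by decide, map_one]
    ts := by rw [← map_mul, show w * r = r * r * w by decide, map_mul, map_mul]
    cop := by
      rw [Nat.card_congr (MonoidHom.ofInjective (f := inl) SemidirectProduct.inl_injective).symm.toEquiv]
      exact hcop
    fpf := by
      rintro _ ⟨g, rfl⟩ hs ht
      have e : ∀ a : A, Commute (inr a) (inl g) → a • g = g := fun a ha => by
        have h2 : inl (φ a g) = inr a * inl g * inr a⁻¹ := SemidirectProduct.inl_aut a g
        rw [ha.eq, mul_assoc, ← map_mul, mul_inv_cancel, map_one, mul_one] at h2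
        exact SemidirectProduct.inl_injective h2
      have hr1 := e r hs
      have hw1 := e w ht
      have hg : g = 1 := hfpf g fun a => by
        have hall : ∀ a : A, a = 1 ∨ a = r ∨ a = r * r ∨ a = w ∨ a = r * w ∨ a = r * r * w := by
          decide
        rcases hall a with rfl | rfl | rfl | rfl | rfl | rfl <;>
          simp only [one_smul, mul_smul, hr1, hw1]
      rw [hg, map_one] }
  have hnil := derived_nilpotent hIs hsol
  have e : ⁅inl.range, inl.range⁆ = (_root_.commutator G).map inl := by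
    rw [_root_.commutator_def, map_commutator, ← MonoidHom.range_eq_map]
  rw [e] at hnil
  exact Group.nilpotent_of_mulEquiv
    (equivMapOfInjective (_root_.commutator G) inl SemidirectProduct.inl_injective).symm

end Cfsg.Lib.Solv.S3
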