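import Cfsg.Agent.Lib.Solv.S3.Basic

/-!
A normal subgroup generated by centralizers fixes all weights.
-/

set_option autoImplicit false

namespace Cfsg.Lib.Solv.S3

open Subgroup

universe u v

variable {X : Type u} [Group X] {Ch : Type v} [CommGroup Ch]

/-- Automorphisms of a commutative group. -/
abbrev CAut (A : Type v) [CommGroup A] := MulAut A

/-- The weights are related by the acting group. -/
def Rel (φ : X →* MulAut Ch) (s t : X) (a b : Ch) : Prop :=
  ∃ g ∈ closure ({s, t} : Set X), φ g a = b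

variable {φ : X →* MulAut Ch} {s t : X}

theorem act_mul (g g' : X) (a : Ch) : φ g (φ g' a) = φ (g * g') a := by rw [map_mul]; rfl

theorem act_one (a : Ch) : φ 1 a = a := by rw [map_one]; rfl

theorem act_inv_self (g : X) (a : Ch) : φ g⁻¹ (φ g a) = a := by
  rw [act_mul, inv_mul_cancel, act_one]

theorem act_commute {g g' : X} (h : Commute g g') (a : Ch) : φ g (φ g' a) = φ g' (φ g a) := by
  rw [act_mul, act_mul, h.eq]

theorem rel_refl (a : Ch) : Rel φ s t a a := ⟨1, one_mem _, act_one a⟩

theorem rel_symm {a b : Ch} : Rel φ s t a b → Rel φ s t b a := fun ⟨g, hg, e⟩ =>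
  ⟨g⁻¹, inv_mem hg, by rw [← e, act_inv_self]⟩

theorem rel_trans {a b c : Ch} : Rel φ s t a b → Rel φ s t b c → Rel φ s t a c :=
  fun ⟨g, hg, e⟩ ⟨g', hg', e'⟩ => ⟨g' * g, mul_mem hg' hg, by rw [← act_mul, e, e']⟩

theorem rel_act {g : X} (hg : g ∈ closure ({s, t} : Set X)) (a : Ch) : Rel φ s t a (φ g a) :=
  ⟨g, hg, rfl⟩

theorem rel_pow (i : ℕ) (a : Ch) : Rel φ s t a (φ (s ^ i) a) :=
  rel_act (pow_mem (subset_closure (Set.mem_insert s _)) i) a

/-- The hypotheses on a set of weights. -/
structure Weights (φ : X →* MulAut Ch) (K : Subgroup X) (s t : X) (S : Set Ch) : Prop where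
  fpf : IsFpf K s t
  inv : ∀ g : X, ∀ y ∈ S, φ g y ∈ S
  triv : ∀ y : Ch, φ s y = y → φ t y = y → y = 1
  stab : ∀ y ∈ S, φ s y = y ∨ ∃ i : ℕ, φ (s ^ i * t) y = y
  sfix : ∀ k ∈ K, Commute s k → ∀ y ∈ S, φ s y = y → φ k y = y

variable {K : Subgroup X} {S : Set Ch}

namespace Weights

theorem shift (h : Weights φ K s t S) (i : ℕ) : Weights φ K s (s ^ i * t) S where
  fpf := h.fpf.shift i
  inv := h.inv
  triv := fun y h1 h2 => h.triv y h1 (by
    have h3 : ∀ j : ℕ, φ (s ^ j) y = y := by
      intro j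
      induction j with
      | zero => rw [pow_zero, act_one]
      | succ j ih => rw [pow_succ, ← act_mul, h1, ih]
    have h4 : t = s ^ (2 * i) * (s ^ i * t) := by
      rw [← mul_assoc, ← pow_add, show 2 * i + i = 3 * i by omega, pow_mul, h.fpf.pow_three,
        one_pow, one_mul]
    rw [h4, ← act_mul, h2, h3])
  stab := fun y hy => (h.stab y hy).imp id fun ⟨j, hj⟩ => ⟨j + 2 * i, by
    rwa [← mul_assoc, ← pow_add, show j + 2 * i + i = j + 3 * i by omega, pow_add, pow_mul,
      h.fpf.pow_three, one_pow, mul_one]⟩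
  sfix := h.sfix

theorem s_fixed_pow {y : Ch} (hy : φ s y = y) (j : ℕ) : φ (s ^ j) y = y := by
  induction j with
  | zero => rw [pow_zero, act_one]
  | succ j ih => rw [pow_succ, ← act_mul, hy, ih]

theorem t_comm_s (h : Weights φ K s t S) (y : Ch) : φ t (φ s y) = φ (s * s) (φ t y) := by
  rw [act_mul, act_mul, h.fpf.ts]

theorem t_fixed_of (h : Weights φ K s t S) {y : Ch} (hy : φ s y = y) :
    φ s (φ t y) = φ t y := by
  have e : s * t = t * (s * s) := by
    have := h.fpf.t_mul_pow 2
    rw [pow_two] at this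
    rw [this, h.fpf.pow_mod (2 * 2), show 2 * 2 % 3 = 1 from rfl, pow_one]
  rw [act_mul, e, ← act_mul, ← act_mul s s, hy, hy]

theorem prod_s_fixed (h : Weights φ K s t S) {y : Ch} (hy : φ s y = y) : y * φ t y = 1 :=
  h.triv _ (by rw [map_mul, hy, h.t_fixed_of hy])
    (by rw [map_mul, act_mul, h.fpf.t2, act_one, mul_comm])

theorem prod_t_fixed (h : Weights φ K s t S) {y : Ch} (hy : φ t y = y) :
    y * φ s y * φ (s * s) y = 1 := by
  refine h.triv _ ?_ ?_
  · rw [map_mul, map_mul, act_mul, act_mul, h.fpf.s3, act_one]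
    generalize φ s y = a, φ (s * s) y = b
    ac_rfl
  · have e1 : φ t (φ s y) = φ (s * s) y := by rw [h.t_comm_s, hy]
    have e2 : φ t (φ (s * s) y) = φ s y := by
      rw [← act_mul s s, h.t_comm_s, h.t_comm_s, hy, act_mul]
      rw [show s * s * (s * s) = s * (s * (s * s)) from mul_assoc _ _ _, h.fpf.s3, mul_one]
    rw [map_mul, map_mul, hy, e1, e2]
    generalize φ s y = a, φ (s * s) y = b
    ac_rfl

/-- An element commuting with `t` carries the orbit of a `t`-fixed weight to an orbit. -/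
theorem rel_of_t_fixed (h : Weights φ K s t S) {k : X} (hkt : Commute t k) {y : Ch} (hy : y ∈ S)
    (hty : φ t y = y) (i : ℕ) : Rel φ s t (φ k y) (φ k (φ (s ^ i) y)) := by
  by_cases hsy : φ s y = y
  · rw [s_fixed_pow hsy]; exact rel_refl _
  set x := φ k (φ s y) with hx
  have hxS : x ∈ S := h.inv k _ (h.inv s y hy)
  have htx : φ t x = φ k (φ (s * s) y) := by
    rw [hx, act_commute hkt, h.t_comm_s, hty]
  have hprod : φ k y * x * φ t x = 1 := by
    rw [htx, hx, ← map_mul, ← map_mul, h.prod_t_fixed hty, map_one]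
  have hky : φ k y = (x * φ t x)⁻¹ := eq_inv_of_mul_eq_one_left (by rwa [← mul_assoc])
  have main : Rel φ s t (φ k y) x := by
    rcases h.stab x hxS with hsx | ⟨j, hj⟩
    · have h1 := h.prod_s_fixed hsx
      rw [h1, inv_one] at hky
      have : y = 1 := (φ k).injective (by rw [hky, map_one])
      exact absurd (by rw [this, map_one]) hsy
    · rw [h.fpf.pow_mod j] at hj
      have htx' : φ t x = φ (s ^ (2 * (j % 3))) x := by
        conv_lhs => rw [← hj]
        rw [act_mul, ← mul_assoc, h.fpf.t_mul_pow, mul_assoc, h.fpf.t2, mul_one]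
      by_cases hj0 : j % 3 = 0
      · rw [hj0, mul_zero, pow_zero, act_one] at htx'
        rw [htx, hx] at htx'
        have h1 := (φ k).injective htx'
        rw [← act_mul] at h1
        have h2 : φ s y = y := (φ s).injective h1
        exact absurd h2 hsy
      · have hp := (h.shift (j % 3)).prod_t_fixed hj
        have hc : j % 3 = 1 ∨ j % 3 = 2 := by omega
        rcases hc with h1 | h1
        · rw [h1, show 2 * 1 = 2 from rfl, pow_two] at htx'
          have : φ k y = φ s x := by
            rw [hky, htx']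
            refine (eq_inv_of_mul_eq_one_left ?_).symm
            rw [← hp]
            generalize φ s x = a, φ (s * s) x = b
            ac_rfl
          rw [this]; exact rel_symm (rel_act (subset_closure (Set.mem_insert s _)) x)
        · rw [h1, show 2 * 2 = 3 + 1 from rfl, pow_add, h.fpf.pow_three, one_mul, pow_one] at htx'
          have : φ k y = φ (s * s) x := by
            rw [hky, htx']
            refine (eq_inv_of_mul_eq_one_left ?_).symm
            rw [← hp]
            generalize φ s x = a, φ (s * s) x = b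
            ac_rfl
          rw [this, ← pow_two]; exact rel_symm (rel_pow 2 x)
  rw [h.fpf.pow_mod i]
  have hc : i % 3 = 0 ∨ i % 3 = 1 ∨ i % 3 = 2 := by omega
  rcases hc with h1 | h1 | h1 <;> rw [h1]
  · rw [pow_zero, act_one]; exact rel_refl _
  · rw [pow_one]; exact main
  · rw [pow_two, ← htx]
    exact rel_trans main (rel_act (subset_closure (Set.mem_insert_of_mem s rfl)) x)

theorem rel_s_of_commute_t (h : Weights φ K s t S) {k : X} (hkt : Commute t k) {y : Ch}
    (hy : y ∈ S) : Rel φ s t (φ k y) (φ k (φ s y)) := by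
  rcases h.stab y hy with hsy | ⟨j, hj⟩
  · rw [hsy]; exact rel_refl _
  set y₀ := φ (s ^ j) y with hy₀
  have ht₀ : φ t y₀ = y₀ := by
    rw [hy₀, act_mul, h.fpf.t_mul_pow, show 2 * j = j + j by omega, pow_add, mul_assoc, ← act_mul,
      hj]
  have hy₀S : y₀ ∈ S := h.inv _ _ hy
  have e1 : y = φ (s ^ (2 * j)) y₀ := by
    rw [hy₀, act_mul, ← pow_add, show 2 * j + j = 3 * j by omega, pow_mul, h.fpf.pow_three,
      one_pow, act_one]
  have e2 : φ s y = φ (s ^ (2 * j + 1)) y₀ := by
    rw [e1, act_mul, ← pow_succ']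
  rw [e1] at e2 ⊢
  rw [e2]
  exact rel_trans (rel_symm (h.rel_of_t_fixed hkt hy₀S ht₀ _)) (h.rel_of_t_fixed hkt hy₀S ht₀ _)

/-- The elements carrying orbits of weights to orbits. -/
def Good (φ : X →* MulAut Ch) (s t : X) (S : Set Ch) (k : X) : Prop :=
  ∀ y ∈ S, ∀ g ∈ closure ({s, t} : Set X), Rel φ s t (φ k y) (φ k (φ g y))

theorem good_of_gen (h : Weights φ K s t S) {k : X}
    (hs : ∀ y ∈ S, Rel φ s t (φ k y) (φ k (φ s y)))
    (ht : ∀ y ∈ S, Rel φ s t (φ k y) (φ k (φ t y))) : Good φ s t S k := by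
  intro y hy g hg
  suffices h2 : ∀ y ∈ S, Rel φ s t (φ k y) (φ k (φ g y)) from h2 y hy
  induction hg using closure_induction with
  | mem x hx =>
    rcases hx with rfl | hx
    · exact hs
    · rw [Set.mem_singleton_iff] at hx; subst hx; exact ht
  | one => intro y _; rw [act_one]; exact rel_refl _
  | mul a b _ _ iha ihb =>
    intro y hy
    rw [← act_mul]
    exact rel_trans (ihb y hy) (iha _ (h.inv b y hy))
  | inv a _ iha =>
    intro y hy
    have h2 := iha _ (h.inv a⁻¹ y hy)
    rw [act_mul a a⁻¹, mul_inv_cancel, act_one] at h2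
    exact rel_symm h2

theorem good_commute_t (h : Weights φ K s t S) {k : X} (hkt : Commute t k) : Good φ s t S k :=
  h.good_of_gen (fun _ hy => h.rel_s_of_commute_t hkt hy) fun y _ => by
    rw [← act_commute hkt]; exact rel_act (subset_closure (Set.mem_insert_of_mem s rfl)) _

theorem good_commute_s (h : Weights φ K s t S) {k : X} (hkK : k ∈ K) (hks : Commute s k) :
    Good φ s t S k := by
  refine h.good_of_gen (fun y _ => ?_) fun y hy => ?_
  · rw [← act_commute hks]; exact rel_act (subset_closure (Set.mem_insert s _)) _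
  · rcases h.stab y hy with hsy | ⟨j, hj⟩
    · rw [h.sfix k hkK hks y hy hsy, h.sfix k hkK hks _ (h.inv t y hy) (h.t_fixed_of hsy)]
      exact rel_act (subset_closure (Set.mem_insert_of_mem s rfl)) _
    · have hty : φ t y = φ (s ^ (2 * j)) y := by
        conv_lhs => rw [← hj]
        rw [act_mul, ← mul_assoc, h.fpf.t_mul_pow, mul_assoc, h.fpf.t2, mul_one]
      rw [hty, ← act_commute (hks.pow_left _)]
      exact rel_pow _ _

theorem closure_shift (h : Weights φ K s t S) (i : ℕ) :
    closure ({s, s ^ i * t} : Set X) = closure ({s, t} : Set X) := by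
  have hs : ∀ u : X, s ∈ closure ({s, u} : Set X) := fun u => subset_closure (Set.mem_insert s _)
  have hu : ∀ u : X, u ∈ closure ({s, u} : Set X) := fun u =>
    subset_closure (Set.mem_insert_of_mem s rfl)
  refine le_antisymm ((closure_le _).2 (Set.insert_subset (hs t) (Set.singleton_subset_iff.2
    (mul_mem (pow_mem (hs t) i) (hu t))))) ((closure_le _).2 (Set.insert_subset (hs _)
    (Set.singleton_subset_iff.2 ?_)))
  have h4 : t = s ^ (2 * i) * (s ^ i * t) := by
    rw [← mul_assoc, ← pow_add, show 2 * i + i = 3 * i by omega, pow_mul, h.fpf.pow_three,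
      one_pow, one_mul]
  rw [SetLike.mem_coe]
  have h5 : s ^ (2 * i) * (s ^ i * t) ∈ closure ({s, s ^ i * t} : Set X) :=
    mul_mem (pow_mem (hs _) _) (hu _)
  rwa [← h4] at h5

theorem good_gens (h : Weights φ K s t S) {k : X} (hk : k ∈ gens K s t) : Good φ s t S k := by
  obtain ⟨hkK, hks | ⟨i, hki⟩⟩ := hk
  · exact h.good_commute_s hkK hks
  · have h2 := (h.shift i).good_commute_t hki
    simp only [Good, Rel, h.closure_shift i] at h2 ⊢
    exact h2

theorem good_mul (h : Weights φ K s t S) {a b : X} (ha : Good φ s t S a) (hb : Good φ s t S b) :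
    Good φ s t S (a * b) := by
  intro y hy g hg
  obtain ⟨g', hg', e⟩ := hb y hy g hg
  rw [← act_mul, ← act_mul, ← e]
  exact ha _ (h.inv b y hy) g' hg'

theorem good_pow (h : Weights φ K s t S) {a : X} (ha : Good φ s t S a) (n : ℕ) :
    Good φ s t S (a ^ n) := by
  induction n with
  | zero => intro y _ g hg; rw [pow_zero, act_one, act_one]; exact rel_act hg y
  | succ n ih => rw [pow_succ]; exact h.good_mul ih ha

theorem good_all [Finite X] [K.Normal] (h : Weights φ K s t S) (hsol : Group.IsSolvable K) {k : X}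
    (hk : k ∈ K) : Good φ s t S k := by
  rw [← closure_gens h.fpf hsol] at hk
  induction hk using closure_induction with
  | mem x hx => exact h.good_gens hx
  | one => intro y _ g hg; rw [act_one, act_one]; exact rel_act hg y
  | mul a b _ _ iha ihb => exact h.good_mul iha ihb
  | inv a _ iha =>
    have e : a⁻¹ = a ^ (orderOf a - 1) := by
      refine inv_eq_of_mul_eq_one_right ?_
      rw [← pow_succ', Nat.sub_add_cancel (orderOf_pos a), pow_orderOf_eq_one]
    rw [e]; exact h.good_pow iha _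

theorem preserves_orbits [Finite X] [hKn : K.Normal] (h : Weights φ K s t S)
    (hsol : Group.IsSolvable K) {k : X} (hk : k ∈ K) {y : Ch} (hy : y ∈ S) :
    Rel φ s t y (φ k y) := by
  let P : X → Prop := fun k => ∀ y ∈ S, Rel φ s t y (φ k y)
  have hpow : ∀ a ∈ K, P a → ∀ n : ℕ, P (a ^ n) := by
    intro a ha hPa n
    induction n with
    | zero => intro y _; rw [pow_zero, act_one]; exact rel_refl y
    | succ n ih =>
      intro y hy
      rw [pow_succ', ← act_mul]
      exact rel_trans (ih y hy) (hPa _ (h.inv _ y hy))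
  let N : Subgroup X :=
    { carrier := {k | k ∈ K ∧ P k}
      one_mem' := ⟨K.one_mem, fun y _ => by rw [act_one]; exact rel_refl y⟩
      mul_mem' := fun {a b} ha hb => ⟨K.mul_mem ha.1 hb.1, fun y hy => by
        rw [← act_mul]; exact rel_trans (hb.2 y hy) (ha.2 _ (h.inv b y hy))⟩
      inv_mem' := fun {a} ha => ⟨K.inv_mem ha.1, fun y hy => by
        have h2 := ha.2 _ (h.inv a⁻¹ y hy)
        rw [act_mul a a⁻¹, mul_inv_cancel, act_one] at h2
        exact rel_symm h2⟩ }
  have hN : ∀ g : X, (∀ y ∈ S, ∀ z ∈ S, Rel φ s t y z → Rel φ s t (φ g y) (φ g z)) →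
      ∀ a ∈ N, g * a * g⁻¹ ∈ N := by
    intro g hg a ha
    refine ⟨hKn.conj_mem a ha.1 g, fun y hy => ?_⟩
    have hy' := h.inv g⁻¹ y hy
    have h2 := hg _ hy' _ (h.inv a _ hy') (ha.2 _ hy')
    rw [act_mul g g⁻¹, mul_inv_cancel, act_one, act_mul a, act_mul g, ← mul_assoc] at h2
    exact h2
  have hA : ∀ g ∈ closure ({s, t} : Set X), ∀ y ∈ S, ∀ z ∈ S, Rel φ s t y z →
      Rel φ s t (φ g y) (φ g z) := fun g hg y _ z _ hyz =>
    rel_trans (rel_trans (rel_symm (rel_act hg y)) hyz) (rel_act hg z)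
  have hKg : ∀ g ∈ K, ∀ y ∈ S, ∀ z ∈ S, Rel φ s t y z → Rel φ s t (φ g y) (φ g z) := by
    rintro g hg y hy z hz ⟨g', hg', rfl⟩
    exact h.good_all hsol hg y hy g' hg'
  have hnorm : ∀ g : X, (∀ a ∈ N, g * a * g⁻¹ ∈ N) → (∀ a ∈ N, g⁻¹ * a * g⁻¹⁻¹ ∈ N) →
      g ∈ normalizer (N : Set X) := fun g h1 h2 => mem_normalizer_iff.2 fun a =>
    ⟨h1 a, fun ha => by have := h2 _ ha; simpa [mul_assoc] using this⟩
  have hsA : s ∈ closure ({s, t} : Set X) := subset_closure (Set.mem_insert s _)
  have htA : t ∈ closure ({s, t} : Set X) := subset_closure (Set.mem_insert_of_mem s rfl)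
  have hcomm : ∀ g ∈ closure ({s, t} : Set X), g * k * g⁻¹ * k⁻¹ ∈ N := by
    intro g hg
    refine ⟨K.mul_mem (hKn.conj_mem k hk g) (K.inv_mem hk), fun y hy => ?_⟩
    have hz := h.inv k⁻¹ y hy
    have h2 := h.good_all hsol hk _ hz g⁻¹ (inv_mem hg)
    rw [act_mul k k⁻¹, mul_inv_cancel, act_one] at h2
    have h3 := rel_trans h2 (rel_act hg _)
    rw [act_mul g⁻¹, act_mul k, act_mul g] at h3
    have e : g * k * g⁻¹ * k⁻¹ = g * (k * (g⁻¹ * k⁻¹)) := by group
    rw [e]; exact h3
  exact (h.fpf.mem_of_fixed (N := N) (fun a ha => ha.1)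
    (fun g hg => hnorm g (hN g (hKg g hg)) (hN _ (hKg _ (inv_mem hg))))
    (hnorm s (hN s (hA s hsA)) (hN _ (hA _ (inv_mem hsA))))
    (hnorm t (hN t (hA t htA)) (hN _ (hA _ (inv_mem htA)))) hk (hcomm s hsA) (hcomm t htA)).2 y hy

theorem orbit_t_fixed (h : Weights φ K s t S) {y : Ch} {j : ℕ} (hj : φ (s ^ j * t) y = y) {g : X}
    (hg : g ∈ closure ({s, t} : Set X)) : ∃ i : ℕ, φ g y = φ (s ^ i) y := by
  suffices h2 : ∀ m : ℕ, ∃ i : ℕ, φ g (φ (s ^ m) y) = φ (s ^ i) y by
    obtain ⟨i, hi⟩ := h2 0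
    rw [pow_zero, act_one] at hi
    exact ⟨i, hi⟩
  have hty : φ t y = φ (s ^ (2 * j)) y := by
    conv_lhs => rw [← hj]
    rw [act_mul, ← mul_assoc, h.fpf.t_mul_pow, mul_assoc, h.fpf.t2, mul_one]
  induction hg using closure_induction with
  | mem x hx =>
    rcases hx with rfl | hx
    · exact fun m => ⟨m + 1, by rw [act_mul, ← pow_succ']⟩
    · rw [Set.mem_singleton_iff] at hx; subst hx
      exact fun m => ⟨2 * m + 2 * j, by rw [act_mul, h.fpf.t_mul_pow, ← act_mul, hty, act_mul, ← pow_add]⟩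
  | one => exact fun m => ⟨m, act_one _⟩
  | mul a b _ _ iha ihb =>
    intro m
    obtain ⟨i, hi⟩ := ihb m
    obtain ⟨i', hi'⟩ := iha i
    exact ⟨i', by rw [← act_mul, hi, hi']⟩
  | inv a _ iha =>
    intro m
    have key : ∀ n : ℕ, ∀ m, ∃ i, φ (a ^ n) (φ (s ^ m) y) = φ (s ^ i) y := by
      intro n
      induction n with
      | zero => exact fun m => ⟨m, by rw [pow_zero, act_one]⟩
      | succ n ihn =>
        intro m
        obtain ⟨i, hi⟩ := iha m
        obtain ⟨i', hi'⟩ := ihn i
        exact ⟨i', by rw [pow_succ, ← act_mul, hi, hi']⟩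
    obtain ⟨i, hi⟩ := iha m
    have hper : ∀ i : ℕ, φ (s ^ i) y = φ (s ^ (i % 3)) y := fun i => by rw [← h.fpf.pow_mod]
    by_contra hcon
    push Not at hcon
    have himg : ∀ b : Fin 3, ∃ c : Fin 3, φ a (φ (s ^ (b : ℕ)) y) = φ (s ^ (c : ℕ)) y := fun b => by
      obtain ⟨i, hi⟩ := iha b
      exact ⟨⟨i % 3, Nat.mod_lt _ (by norm_num)⟩, hi.trans (hper i)⟩
    let T : Set Ch := Set.range fun b : Fin 3 => φ (s ^ (b : ℕ)) y
    have hmap : Set.MapsTo (φ a) T T := by
      rintro _ ⟨b, rfl⟩
      obtain ⟨c, hc⟩ := himg b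
      exact ⟨c, hc.symm⟩
    have hsurj := ((Set.finite_range _).injOn_iff_bijOn_of_mapsTo hmap).1
      ((φ a).injective.injOn) |>.surjOn
    obtain ⟨z, ⟨b, rfl⟩, hb⟩ := hsurj ⟨⟨m % 3, Nat.mod_lt _ (by norm_num)⟩, rfl⟩
    refine hcon b ?_
    rw [hper m]
    have hb' : φ a (φ (s ^ (b : ℕ)) y) = φ (s ^ (m % 3)) y := hb
    rw [← hb', act_inv_self]

theorem fix_of_pow {k : X} (hk : k ∈ K) {n : ℕ} (hn : n = 2 ∨ n = 3)
    (h : IsFpf K s t) {y : Ch} (hy : φ (k ^ n) y = y) : φ k y = y := by
  have hcop : Nat.Coprime n (orderOf k) := by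
    refine Nat.Coprime.coprime_dvd_right (Subgroup.orderOf_dvd_natCard K hk) ?_
    refine Nat.Coprime.coprime_dvd_left ?_ h.cop.symm
    rcases hn with rfl | rfl <;> norm_num
  obtain ⟨m, hm⟩ := exists_pow_eq_self_of_coprime hcop
  rw [← hm]
  clear hm
  induction m with
  | zero => rw [pow_zero, act_one]
  | succ m ih => rw [pow_succ, ← act_mul, hy, ih]

/-- The main combinatorial statement. -/
theorem fixes_all [Finite X] [K.Normal] (h : Weights φ K s t S) (hsol : Group.IsSolvable K) {k : X}
    (hk : k ∈ K) {y : Ch} (hy : y ∈ S) : φ k y = y := by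
  rw [← closure_gens h.fpf hsol] at hk
  revert y
  induction hk using closure_induction with
  | one => intro y _; exact act_one y
  | mul a b _ _ iha ihb => intro y hy; rw [← act_mul, ihb hy, iha hy]
  | inv a _ iha =>
    intro y hy
    have := iha hy
    conv_lhs => rw [← this]
    exact act_inv_self a y
  | mem x hx =>
    obtain ⟨hxK, hxs | ⟨i, hxi⟩⟩ := hx
    · intro y hy
      rcases h.stab y hy with hsy | ⟨j, hj⟩
      · exact h.sfix x hxK hxs y hy hsy
      · obtain ⟨g, hg, hgy⟩ := h.preserves_orbits hsol hxK hy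
        obtain ⟨i, hi⟩ := h.orbit_t_fixed hj hg
        rw [hi] at hgy
        refine fix_of_pow hxK (Or.inr rfl) h.fpf ?_
        have e : ∀ n : ℕ, φ (x ^ n) y = φ (s ^ (n * i)) y := by
          intro n
          induction n with
          | zero => rw [pow_zero, Nat.zero_mul, pow_zero]
          | succ n ihn =>
            rw [pow_succ', ← act_mul, ihn, ← act_commute (hxs.pow_left _), ← hgy, act_mul,
              ← pow_add, Nat.succ_mul]
        rw [e, pow_mul, h.fpf.pow_three, one_pow, act_one]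
    · intro y hy
      have hw := h.shift i
      generalize s ^ i * t = u at hw hxi
      rcases hw.stab y hy with hsy | ⟨j, hj⟩
      · obtain ⟨g, hg, hgy⟩ := hw.preserves_orbits hsol hxK hy
        have horb : φ g y = y ∨ φ g y = φ u y := by
          clear hgy
          suffices h2 : (φ g y = y ∧ φ g (φ u y) = φ u y) ∨ (φ g y = φ u y ∧ φ g (φ u y) = y) by
            exact h2.imp And.left And.left
          induction hg using closure_induction with
          | mem z hz =>
            rcases hz with rfl | hz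
            · exact Or.inl ⟨hsy, hw.t_fixed_of hsy⟩
            · rw [Set.mem_singleton_iff] at hz; subst hz
              exact Or.inr ⟨rfl, by rw [act_mul, hw.fpf.t2, act_one]⟩
          | one => exact Or.inl ⟨act_one _, act_one _⟩
          | mul a b _ _ iha ihb =>
            simp only [← act_mul]
            rcases iha with ⟨a1, a2⟩ | ⟨a1, a2⟩ <;> rcases ihb with ⟨b1, b2⟩ | ⟨b1, b2⟩ <;>
              simp [b1, b2, a1, a2]
          | inv a _ iha =>
            rcases iha with ⟨a1, a2⟩ | ⟨a1, a2⟩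
            · exact Or.inl ⟨by conv_lhs => rw [← a1, act_inv_self],
                by conv_lhs => rw [← a2, act_inv_self]⟩
            · exact Or.inr ⟨by conv_lhs => rw [← a2, act_inv_self],
                by conv_lhs => rw [← a1, act_inv_self]⟩
        rw [hgy] at horb
        rcases horb with h1 | h1
        · exact h1
        · refine fix_of_pow hxK (Or.inl rfl) h.fpf ?_
          rw [pow_two, ← act_mul, h1, ← act_commute hxi, h1, act_mul, hw.fpf.t2, act_one]
      · set y₀ := φ (s ^ j) y with hy₀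
        have ht₀ : φ u y₀ = y₀ := by
          rw [hy₀, act_mul, hw.fpf.t_mul_pow, show 2 * j = j + j by omega, pow_add, mul_assoc,
            ← act_mul, hj]
        have hy₀S : y₀ ∈ S := hw.inv _ _ hy
        have e1 : y = φ (s ^ (2 * j)) y₀ := by
          rw [hy₀, act_mul, ← pow_add, show 2 * j + j = 3 * j by omega, pow_mul, hw.fpf.pow_three,
            one_pow, act_one]
        suffices h2 : ∀ m : ℕ, φ x (φ (s ^ m) y₀) = φ (s ^ m) y₀ by
          rw [e1]; exact h2 _
        intro m
        by_cases hs₀ : φ s y₀ = y₀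
        · have h2 := hw.triv _ hs₀ ht₀
          rw [h2, map_one, map_one]
        have hfix0 : φ x y₀ = y₀ := by
          obtain ⟨g, hg, hgy⟩ := hw.preserves_orbits hsol hxK hy₀S
          obtain ⟨i, hi⟩ := hw.orbit_t_fixed (j := 0) (by rwa [pow_zero, one_mul]) hg
          rw [hi] at hgy
          rw [← hgy]
          have h1 : φ u (φ (s ^ i) y₀) = φ (s ^ i) y₀ := by rw [hgy, act_commute hxi, ht₀]
          rw [act_mul, hw.fpf.t_mul_pow, ← act_mul, ht₀, hw.fpf.pow_mod (2 * i),
            hw.fpf.pow_mod i] at h1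
          rw [hw.fpf.pow_mod i]
          have hc : i % 3 = 0 ∨ i % 3 = 1 ∨ i % 3 = 2 := by omega
          rcases hc with h2 | h2 | h2
          · rw [h2, pow_zero, act_one]
          · rw [h2, show 2 * i % 3 = 2 by omega, pow_one, pow_two, ← act_mul] at h1
            exact absurd ((φ s).injective h1) hs₀
          · rw [h2, show 2 * i % 3 = 1 by omega, pow_one, pow_two, ← act_mul] at h1
            exact absurd ((φ s).injective h1).symm hs₀
        have hsx : φ x (φ s y₀) = φ s y₀ := by
          obtain ⟨g, hg, hgy⟩ := hw.preserves_orbits hsol hxK hy₀S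
          have hrel := hw.preserves_orbits hsol hxK (hw.inv s _ hy₀S)
          obtain ⟨g', hg', hgy'⟩ := rel_trans (rel_act (subset_closure (Set.mem_insert s _)) y₀) hrel
          obtain ⟨i, hi⟩ := hw.orbit_t_fixed (j := 0) (by rwa [pow_zero, one_mul]) hg'
          rw [hi, hw.fpf.pow_mod i] at hgy'
          have hc : i % 3 = 0 ∨ i % 3 = 1 ∨ i % 3 = 2 := by omega
          rcases hc with h2 | h2 | h2
          · rw [h2, pow_zero, act_one] at hgy'
            exact absurd ((φ x).injective (hgy'.symm.trans hfix0.symm)) hs₀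
          · rw [h2, pow_one] at hgy'; exact hgy'.symm
          · rw [h2, pow_two] at hgy'
            refine fix_of_pow hxK (Or.inl rfl) h.fpf ?_
            have hu2 : φ (s * s) y₀ = φ u (φ s y₀) := by rw [hw.t_comm_s, ht₀]
            rw [pow_two, ← act_mul, ← hgy', hu2, ← act_commute hxi, ← hgy', hu2, act_mul,
              hw.fpf.t2, act_one]
        rw [hw.fpf.pow_mod m]
        have hc : m % 3 = 0 ∨ m % 3 = 1 ∨ m % 3 = 2 := by omega
        rcases hc with h2 | h2 | h2 <;> rw [h2]
        · rw [pow_zero, act_one]; exact hfix0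
        · rw [pow_one]; exact hsx
        · rw [pow_two, show φ (s * s) y₀ = φ u (φ s y₀) by rw [hw.t_comm_s, ht₀],
            ← act_commute hxi, hsx]

end Weights

end Cfsg.Lib.Solv.S3
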