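import Cfsg.Agent.Lib.Solv.S3.Orbit

/-!
Weights of abelian normal subgroups in a faithful module without common fixed points.
-/

set_option autoImplicit false

namespace Cfsg.Lib.Solv.S3

open Subgroup

universe u v w

variable {X : Type u} [Group X] {V : Type v} [CommGroup V] {k : Type w} [Field k]

/-- The contragredient action on `k`-valued functionals. -/
def contra (ρ : X →* MulAut V) : X →* Module.End k (Additive V →+ k) where
  toFun g :=
    { toFun := fun f => f.comp (MonoidHom.toAdditive (ρ g⁻¹).toMonoidHom)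
      map_add' := fun _ _ => rfl
      map_smul' := fun _ _ => rfl }
  map_one' := by
    refine LinearMap.ext fun f => AddMonoidHom.ext fun v => ?_
    show f (Additive.ofMul (ρ (1 : X)⁻¹ (Additive.toMul v))) = f v
    rw [inv_one, map_one]; rfl
  map_mul' g g' := by
    refine LinearMap.ext fun f => AddMonoidHom.ext fun v => ?_
    show f (Additive.ofMul (ρ (g * g')⁻¹ (Additive.toMul v))) =
      f (Additive.ofMul (ρ g'⁻¹ (ρ g⁻¹ (Additive.toMul v))))
    rw [mul_inv_rev, map_mul]; rfl

theorem contra_apply (ρ : X →* MulAut V) (g : X) (f : Additive V →+ k) (v : V) :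
    contra ρ g f (Additive.ofMul v) = f (Additive.ofMul (ρ g⁻¹ v)) := rfl

theorem contra_contra (ρ : X →* MulAut V) (g g' : X) (f : Additive V →+ k) :
    contra ρ g (contra ρ g' f) = contra ρ (g * g') f := by rw [map_mul]; rfl

theorem exists_functional {r : ℕ} [hr : Fact r.Prime] [CharP k r] {M : Type v} [AddCommGroup M]
    [Module (ZMod r) M] {m : M} (hm : m ≠ 0) : ∃ f : M →+ k, f m ≠ 0 := by
  letI : Algebra (ZMod r) k := ZMod.algebra k r
  obtain ⟨φ, hφ⟩ : ∃ φ : M →ₗ[ZMod r] ZMod r, φ m ≠ 0 := by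
    by_contra! hcon
    exact hm ((Module.forall_dual_apply_eq_zero_iff (ZMod r) _).1 hcon)
  exact ⟨(algebraMap (ZMod r) k).toAddMonoidHom.comp φ.toAddMonoidHom, fun h =>
    hφ ((algebraMap (ZMod r) k).injective (h.trans (map_zero _).symm))⟩

/-- Functionals separate the points of a module of exponent the characteristic. -/
theorem separation [Finite V] {r : ℕ} [hr : Fact r.Prime] [CharP k r] (hexp : ∀ v : V, v ^ r = 1)
    {a b : V} (h : ∀ f : Additive V →+ k, f (Additive.ofMul a) = f (Additive.ofMul b)) : a = b := by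
  letI := AddCommGroup.zmodModule (n := r) (G := Additive V) fun v => by
    show r • v = 0
    exact congrArg Additive.ofMul (hexp (Additive.toMul v))
  by_contra hne
  obtain ⟨f, hf⟩ := exists_functional (k := k) (r := r) (M := Additive V)
    (m := Additive.ofMul a - Additive.ofMul b)
    (sub_ne_zero.2 fun e => hne (Additive.ofMul.injective e))
  exact hf (by rw [map_sub, h f, sub_self])

variable {Q : Subgroup X} [hQn : Q.Normal]

/-- Conjugation on characters of a normal subgroup. -/
def actHom (Q : Subgroup X) [Q.Normal] : X →* CAut (Q →* kˣ) where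
  toFun g :=
    { toFun := fun χ => χ.comp (MulAut.conjNormal g⁻¹ : MulAut Q).toMonoidHom
      invFun := fun χ => χ.comp (MulAut.conjNormal g : MulAut Q).toMonoidHom
      left_inv := fun χ => MonoidHom.ext fun x => by
        show χ ((MulAut.conjNormal g⁻¹ : MulAut Q) ((MulAut.conjNormal g : MulAut Q) x)) = χ x
        rw [← MulAut.mul_apply, ← map_mul, inv_mul_cancel, map_one]; rfl
      right_inv := fun χ => MonoidHom.ext fun x => by
        show χ ((MulAut.conjNormal g : MulAut Q) ((MulAut.conjNormal g⁻¹ : MulAut Q) x)) = χ x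
        rw [← MulAut.mul_apply, ← map_mul, mul_inv_cancel, map_one]; rfl
      map_mul' := fun _ _ => rfl }
  map_one' := by
    refine MulEquiv.ext fun χ => MonoidHom.ext fun x => ?_
    show χ ((MulAut.conjNormal (1 : X)⁻¹ : MulAut Q) x) = χ x
    rw [inv_one, map_one]; rfl
  map_mul' g g' := by
    refine MulEquiv.ext fun χ => MonoidHom.ext fun x => ?_
    show χ ((MulAut.conjNormal (g * g')⁻¹ : MulAut Q) x) =
      χ ((MulAut.conjNormal g'⁻¹ : MulAut Q) ((MulAut.conjNormal g⁻¹ : MulAut Q) x))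
    rw [mul_inv_rev, map_mul]; rfl

theorem actHom_apply (g : X) (χ : Q →* kˣ) (x : Q) :
    actHom Q g χ x = χ (MulAut.conjNormal g⁻¹ x) := rfl

/-- The weight space. -/
def wtSpace (ρ : X →* MulAut V) (Q : Subgroup X) (χ : Q →* kˣ) :
    Submodule k (Additive V →+ k) where
  carrier := {f | ∀ x : Q, contra ρ (x : X) f = ((χ x : kˣ) : k) • f}
  zero_mem' := fun x => by rw [map_zero, smul_zero]
  add_mem' := fun {a b} ha hb x => by rw [map_add, ha x, hb x, smul_add]
  smul_mem' := fun c f hf x => by rw [map_smul, hf x, smul_comm]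

theorem wt_move (ρ : X →* MulAut V) (g : X) {χ : Q →* kˣ} {f : Additive V →+ k}
    (hf : f ∈ wtSpace ρ Q χ) : contra ρ g f ∈ wtSpace ρ Q (actHom Q g χ) := by
  intro x
  have e : (x : X) * g = g * ((MulAut.conjNormal g⁻¹ x : Q) : X) := by
    rw [MulAut.conjNormal_apply]; group
  rw [contra_contra, e, ← contra_contra, hf, map_smul, actHom_apply]

variable [Finite X]

/-- The projection to a weight space. -/
noncomputable def proj (ρ : X →* MulAut V) (Q : Subgroup X) (χ : Q →* kˣ)
    (f : Additive V →+ k) : Additive V →+ k :=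
  letI := Fintype.ofFinite Q
  (Nat.card Q : k)⁻¹ • ∑ x : Q, ((χ x⁻¹ : kˣ) : k) • contra ρ (x : X) f

theorem proj_mem (ρ : X →* MulAut V) (χ : Q →* kˣ) (f : Additive V →+ k) :
    proj ρ Q χ f ∈ wtSpace ρ Q χ := by
  letI := Fintype.ofFinite Q
  intro y
  unfold proj
  rw [map_smul, map_sum, smul_comm]
  congr 1
  rw [Finset.smul_sum, ← Equiv.sum_comp (Equiv.mulLeft y) (fun x => ((χ y : kˣ) : k) •
    (((χ x⁻¹ : kˣ) : k) • contra ρ (x : X) f))]
  refine Finset.sum_congr rfl fun x _ => ?_
  rw [map_smul, contra_contra, smul_smul, Equiv.coe_mulLeft]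
  congr 1
  rw [← Units.val_mul, ← map_mul, mul_inv_rev, map_mul, map_mul, mul_comm (χ x⁻¹), ← mul_assoc,
    ← map_mul, mul_inv_cancel, map_one, one_mul]

theorem proj_of_mem (ρ : X →* MulAut V) (hQ0 : (Nat.card Q : k) ≠ 0) {χ ψ : Q →* kˣ}
    {f : Additive V →+ k} (hf : f ∈ wtSpace ρ Q ψ) :
    (χ = ψ → proj ρ Q χ f = f) ∧ (χ ≠ ψ → proj ρ Q χ f = 0) := by
  letI := Fintype.ofFinite Q
  have e : ∀ x : Q, ((χ x⁻¹ : kˣ) : k) • contra ρ (x : X) f =
      (((Units.coeHom k).comp (χ⁻¹ * ψ)) x) • f := fun x => by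
    rw [hf x, smul_smul]
    congr 1
    simp [map_inv]
  refine ⟨fun h => ?_, fun h => ?_⟩
  · subst h
    unfold proj
    simp only [e, ← Finset.sum_smul, smul_smul]
    rw [show ∑ x : Q, ((Units.coeHom k).comp (χ⁻¹ * χ)) x = (Nat.card Q : k) by
      simp [Nat.card_eq_fintype_card], inv_mul_cancel₀ hQ0, one_smul]
  · unfold proj
    simp only [e, ← Finset.sum_smul]
    rw [sum_hom_units_eq_zero, zero_smul, smul_zero]
    intro h2
    refine h (inv_mul_eq_one.1 ?_)
    refine MonoidHom.ext fun x => Units.ext ?_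
    exact DFunLike.congr_fun h2 x

theorem sum_proj [IsMulCommutative Q] (ρ : X →* MulAut V) [IsAlgClosed k] (hQ0 : (Nat.card Q : k) ≠ 0)
    (f : Additive V →+ k) [Fintype (Q →* kˣ)] :
    ∑ χ : Q →* kˣ, proj ρ Q χ f = f := by
  classical
  letI : CommGroup Q := { (inferInstance : Group Q) with mul_comm := mul_comm' }
  letI := Fintype.ofFinite Q
  haveI : NeZero (Monoid.exponent Q : k) := ⟨fun h0 => hQ0 (by
    obtain ⟨c, hc⟩ := Group.exponent_dvd_nat_card (G := Q)
    rw [hc, Nat.cast_mul, h0, zero_mul])⟩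
  haveI : NeZero (Monoid.exponent Q) := ⟨Monoid.exponent_ne_zero_of_finite⟩
  unfold proj
  rw [← Finset.smul_sum, Finset.sum_comm, Finset.sum_eq_single (1 : Q)]
  · simp only [inv_one, map_one, Units.val_one, one_smul, coe_one, Module.End.one_apply]
    rw [Finset.sum_const, Finset.card_univ, ← Nat.card_eq_fintype_card,
      CommGroup.card_monoidHom_of_hasEnoughRootsOfUnity Q k, ← Nat.cast_smul_eq_nsmul k, smul_smul,
      inv_mul_cancel₀ hQ0, one_smul]
  · intro x _ hx
    rw [← Finset.sum_smul]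
    let ev : (Q →* kˣ) →* k :=
      { toFun := fun χ => ((χ x⁻¹ : kˣ) : k)
        map_one' := rfl
        map_mul' := fun _ _ => rfl }
    have hev : ev ≠ 1 := by
      intro h1
      obtain ⟨φ, hφ⟩ := CommGroup.exists_apply_ne_one_of_hasEnoughRootsOfUnity Q k (inv_ne_one.2 hx)
      exact hφ (Units.ext (DFunLike.congr_fun h1 φ))
    rw [show ∑ χ : Q →* kˣ, ((χ x⁻¹ : kˣ) : k) = ∑ χ : Q →* kˣ, ev χ from rfl,
      sum_hom_units_eq_zero ev hev, zero_smul]
  · intro h; exact absurd (Finset.mem_univ _) h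

/-- The weights. -/
def wts (ρ : X →* MulAut V) (Q : Subgroup X) : Set (Q →* kˣ) := {χ | wtSpace ρ Q χ ≠ ⊥}

theorem finite_charGroup [IsMulCommutative Q] [IsAlgClosed k] (hQ0 : (Nat.card Q : k) ≠ 0) :
    Finite (Q →* kˣ) := by
  letI : CommGroup Q := { (inferInstance : Group Q) with mul_comm := mul_comm' }
  haveI : NeZero (Monoid.exponent Q : k) := ⟨fun h0 => hQ0 (by
    obtain ⟨c, hc⟩ := Group.exponent_dvd_nat_card (G := Q)
    rw [hc, Nat.cast_mul, h0, zero_mul])⟩
  haveI : NeZero (Monoid.exponent Q) := ⟨Monoid.exponent_ne_zero_of_finite⟩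
  exact Nat.finite_of_card_ne_zero (by
    rw [CommGroup.card_monoidHom_of_hasEnoughRootsOfUnity Q k]; exact Nat.card_pos.ne')

/-- Two elements agreeing on every weight space act alike. -/
theorem ext_of_wts [IsMulCommutative Q] (ρ : X →* MulAut V) [IsAlgClosed k]
    (hQ0 : (Nat.card Q : k) ≠ 0) {a b : X}
    (h : ∀ χ ∈ wts (k := k) ρ Q, ∀ f ∈ wtSpace ρ Q χ, contra ρ a f = contra ρ b f)
    (f : Additive V →+ k) : contra ρ a f = contra ρ b f := by
  haveI := finite_charGroup (k := k) (Q := Q) hQ0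
  letI := Fintype.ofFinite (Q →* kˣ)
  rw [← sum_proj ρ hQ0 f, map_sum, map_sum]
  refine Finset.sum_congr rfl fun χ _ => ?_
  by_cases hχ : wtSpace (k := k) ρ Q χ = ⊥
  · have := proj_mem ρ χ f
    rw [hχ, Submodule.mem_bot] at this
    rw [this, map_zero, map_zero]
  · exact h χ hχ _ (proj_mem ρ χ f)

variable {K : Subgroup X} [hKn : K.Normal] {s t : X}

/-- The setting: a faithful module without common fixed points. -/
structure IsModule (ρ : X →* MulAut V) (K : Subgroup X) (s t : X) (r : ℕ) : Prop where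
  fpf : IsFpf K s t
  exp : ∀ v : V, v ^ r = 1
  faith : ∀ g ∈ K, (∀ v, ρ g v = v) → g = 1
  fixed : ∀ v, ρ s v = v → ρ t v = v → v = 1

variable {ρ : X →* MulAut V} {r : ℕ}

omit [Finite X] hKn in
theorem IsModule.norm (h : IsModule ρ K s t r) (v : V) :
    (v * ρ s v * ρ (s * s) v) * (ρ t v * ρ (s * t) v * ρ (s * s * t) v) = 1 := by
  have hm : ∀ g g' y, ρ g (ρ g' y) = ρ (g * g') y := fun g g' y => by rw [map_mul]; rfl
  have h1 : ρ 1 v = v := by rw [map_one]; rfl
  have e1 : s * (s * s * t) = t := by rw [← mul_assoc, h.fpf.s3, one_mul]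
  have e2 : s * (s * t) = s * s * t := (mul_assoc _ _ _).symm
  have e3 : t * (s * s) = s * t := by
    have := h.fpf.t_mul_pow 2
    rwa [pow_two, h.fpf.pow_mod (2 * 2), show 2 * 2 % 3 = 1 from rfl, pow_one] at this
  have e4 : t * (s * t) = s * s := by rw [← mul_assoc, h.fpf.ts, mul_assoc, h.fpf.t2, mul_one]
  have e5 : t * (s * s * t) = s := by rw [← mul_assoc, e3, mul_assoc, h.fpf.t2, mul_one]
  refine h.fixed _ ?_ ?_
  · simp only [map_mul (ρ s), hm, h.fpf.s3, h1, e1, e2]
    generalize ρ s v = a1, ρ (s * s) v = a2, ρ t v = a3, ρ (s * t) v = a4, ρ (s * s * t) v = a5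
    ac_rfl
  · simp only [map_mul (ρ t), hm, h.fpf.t2, h1, h.fpf.ts, e3, e4, e5]
    generalize ρ s v = a1, ρ (s * s) v = a2, ρ t v = a3, ρ (s * t) v = a4, ρ (s * s * t) v = a5
    ac_rfl

omit [Finite X] hKn in
theorem IsModule.contra_norm (h : IsModule ρ K s t r) (f : Additive V →+ k) :
    f + contra ρ s f + contra ρ (s * s) f +
      (contra ρ t f + contra ρ (s * t) f + contra ρ (s * s * t) f) = 0 := by
  have i1 : s⁻¹ = s * s := h.fpf.sinv
  have i2 : (s * s)⁻¹ = s := by rw [mul_inv_rev, i1, mul_assoc, h.fpf.s3, mul_one]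
  have i3 : t⁻¹ = t := h.fpf.tinv
  have i4 : (s * t)⁻¹ = s * t := by
    refine inv_eq_of_mul_eq_one_right ?_
    have := (h.fpf.shift 1).t2
    rwa [pow_one] at this
  have i5 : (s * s * t)⁻¹ = s * s * t := by
    refine inv_eq_of_mul_eq_one_right ?_
    have := (h.fpf.shift 2).t2
    rwa [pow_two] at this
  refine AddMonoidHom.ext fun a => ?_
  obtain ⟨v, rfl⟩ := Additive.ofMul.surjective a
  simp only [AddMonoidHom.add_apply, AddMonoidHom.zero_apply, contra_apply, i1, i2, i3, i4, i5]
  rw [← map_add f, ← map_add f, ← map_add f, ← map_add f, ← map_add f, ← ofMul_mul, ← ofMul_mul,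
    ← ofMul_mul, ← ofMul_mul, ← ofMul_mul]
  have e : v * ρ (s * s) v * ρ s v * (ρ t v * ρ (s * t) v * ρ (s * s * t) v) = 1 := by
    rw [← h.norm v]
    generalize ρ s v = a1, ρ (s * s) v = a2, ρ t v = a3, ρ (s * t) v = a4, ρ (s * s * t) v = a5
    ac_rfl
  rw [e, ofMul_one, map_zero]

theorem IsModule.faith_contra [Finite V] [hr : Fact r.Prime] [CharP k r] (h : IsModule ρ K s t r)
    {a b : X} (ha : a ∈ K) (hb : b ∈ K)
    (hab : ∀ f : Additive V →+ k, contra ρ a f = contra ρ b f) : a = b := by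
  have h1 : a⁻¹ * b = 1 := by
    refine h.faith _ (K.mul_mem (K.inv_mem ha) hb) fun v => separation (k := k) h.exp fun f => ?_
    have h2 := DFunLike.congr_fun (hab f) (Additive.ofMul (ρ b v))
    rw [contra_apply, contra_apply] at h2
    have e : ∀ g g' : X, ρ g (ρ g' v) = ρ (g * g') v := fun g g' => by rw [map_mul]; rfl
    rw [e, e, inv_mul_cancel, map_one] at h2
    exact h2
  exact (inv_mul_eq_one.1 h1)

omit hKn in
theorem eq_one_of_units_pow (h : IsFpf K s t) (hQK : Q ≤ K) (χ : Q →* kˣ) (x : Q) {n : ℕ}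
    (hn : ∀ p : ℕ, p.Prime → p ∣ n → p = 2 ∨ p = 3) (hpow : χ x ^ n = 1) : χ x = 1 := by
  have h2 : orderOf (χ x) ∣ Nat.card K :=
    ((orderOf_map_dvd χ x).trans (orderOf_dvd_natCard x)).trans (card_dvd_of_le hQK)
  by_contra hne
  obtain ⟨p, hp, hd⟩ := Nat.exists_prime_and_dvd (fun e => hne (orderOf_eq_one_iff.1 e))
  have h6 : p ∣ 6 := by
    rcases hn p hp (hd.trans (orderOf_dvd_of_pow_eq_one hpow)) with rfl | rfl <;> norm_num
  exact hp.ne_one (Nat.eq_one_of_dvd_coprimes h.cop (hd.trans h2) h6)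

theorem IsModule.weights (h : IsModule ρ K s t r) (hQK : Q ≤ K) (hQc : IsMulCommutative Q)
    (hQ0 : (Nat.card Q : k) ≠ 0) :
    Weights (Ch := Q →* kˣ) (actHom Q) K s t (wts (k := k) ρ Q) where
  fpf := h.fpf
  inv := fun g y hy => by
    obtain ⟨f, hf, hf0⟩ := Submodule.exists_mem_ne_zero_of_ne_bot hy
    intro hbot
    have := wt_move ρ g hf
    rw [hbot, Submodule.mem_bot] at this
    refine hf0 ?_
    have h2 := congrArg (contra ρ g⁻¹) this
    rwa [contra_contra, inv_mul_cancel, map_one, map_zero, Module.End.one_apply] at h2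
  triv := fun y hs ht => by
    refine MonoidHom.ext fun x => ?_
    letI : CommGroup Q := { (inferInstance : Group Q) with mul_comm := mul_comm' }
    set c := (MulAut.conjNormal : X →* MulAut Q) with hc
    have key : ∀ g : X, actHom Q g y = y → y (c g⁻¹ x) = y x := fun g hg =>
      DFunLike.congr_fun hg x
    have hpow : ∀ i : ℕ, actHom Q (s ^ i) y = y := fun i => Weights.s_fixed_pow hs i
    have k1 : y (c s x) = y x := by
      have := key (s ^ 2) (hpow 2)
      rwa [inv_eq_of_mul_eq_one_right (show s ^ 2 * s = 1 by rw [pow_two, mul_assoc, h.fpf.s3])] at this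
    have k2 : y (c (s * s) x) = y x := by
      have := key s hs
      rwa [h.fpf.sinv] at this
    have k3 : y (c t x) = y x := by
      have := key t ht
      rwa [h.fpf.tinv] at this
    have k4 : y (c (s * t) x) = y x := by
      have := key (s * t) (by rw [← act_mul, ht, hs])
      rwa [show (s * t)⁻¹ = s * t from inv_eq_of_mul_eq_one_right (by
        have := (h.fpf.shift 1).t2; rwa [pow_one] at this)] at this
    have k5 : y (c (s * s * t) x) = y x := by
      have := key (s * s * t) (by rw [← act_mul, ht, ← act_mul, hs, hs])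
      rwa [show (s * s * t)⁻¹ = s * s * t from inv_eq_of_mul_eq_one_right (by
        have := (h.fpf.shift 2).t2; rwa [pow_two] at this)] at this
    have hN := congrArg y (h.fpf.norm_eq_one hQK hQc x)
    rw [← hc, map_mul y, map_mul y, map_mul y, map_mul y, map_mul y, map_one y, k1, k2, k3, k4, k5] at hN
    refine eq_one_of_units_pow h.fpf hQK y x (n := 6) (fun p hp hd => ?_) ?_
    · have : p ≤ 6 := Nat.le_of_dvd (by norm_num) hd
      interval_cases p <;> first | (left; rfl) | (right; rfl) | exact absurd hp Nat.not_prime_zero | exact absurd hp Nat.not_prime_one | exact absurd hp (by decide) | exact absurd hd (by decide)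
    · rw [← hN]; simp only [pow_succ, pow_zero, one_mul, mul_assoc]
  stab := fun y hy => by
    by_contra hcon
    push Not at hcon
    obtain ⟨hs, ht⟩ := hcon
    obtain ⟨f, hf, hf0⟩ := Submodule.exists_mem_ne_zero_of_ne_bot hy
    have hp : ∀ g : X, actHom Q g y ≠ y → proj ρ Q y (contra ρ g f) = 0 := fun g hg =>
      (proj_of_mem ρ hQ0 (wt_move ρ g hf)).2 (Ne.symm hg)
    have hlin : ∀ a b : Additive V →+ k, proj ρ Q y (a + b) = proj ρ Q y a + proj ρ Q y b := by
      intro a b
      unfold proj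
      simp only [map_add, smul_add, Finset.sum_add_distrib]
    have hz : proj ρ Q y (0 : Additive V →+ k) = 0 := by
      unfold proj; simp
    have hs2 : actHom Q (s * s) y ≠ y := fun e => hs (by
      have h2 := congrArg (actHom Q s) e
      rw [act_mul, h.fpf.s3, act_one] at h2
      exact h2.symm)
    have h0 := congrArg (proj ρ Q y) (h.contra_norm f)
    rw [hlin, hlin, hlin, hlin, hlin, hz, (proj_of_mem ρ hQ0 hf).1 rfl, hp s hs, hp _ hs2,
      hp t (by simpa using ht 0), hp (s * t) (by simpa using ht 1),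
      hp (s * s * t) (by simpa [pow_two] using ht 2)] at h0
    simp only [add_zero] at h0
    exact hf0 h0
  sfix := fun g hgK hgs y _ hy => by
    refine MonoidHom.ext fun x => ?_
    set c := (MulAut.conjNormal : X →* MulAut Q) with hc
    have hm : ∀ g g' z, c g (c g' z) = c (g * g') z := fun g g' z => by rw [map_mul]; rfl
    letI : CommGroup Q := { (inferInstance : Group Q) with mul_comm := mul_comm' }
    let P : Q := x * c s x * c (s * s) x
    have hP : c s P = P := by
      simp only [P, map_mul (c s), hm, h.fpf.s3]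
      rw [show c 1 x = x by rw [map_one]; rfl]
      generalize c s x = a1, c (s * s) x = a2
      ac_rfl
    have hPs : Commute s (P : X) := by
      have h2 := congrArg Subtype.val hP
      rw [hc, MulAut.conjNormal_apply] at h2
      exact mul_inv_eq_iff_eq_mul.1 h2
    have hcomm := h.fpf.centralizer_s_comm hgK (hQK P.2) hgs hPs
    have hgP : c g⁻¹ P = P := Subtype.ext (by
      rw [hc, MulAut.conjNormal_apply, hcomm.inv_left.eq, mul_inv_cancel_right])
    have key : ∀ z : Q, y (c s z) = y z := fun z => by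
      have h2 := DFunLike.congr_fun hy (c s z)
      rw [actHom_apply, ← hc, hm, inv_mul_cancel] at h2
      rw [← h2, map_one]; rfl
    have key2 : ∀ z : Q, y (c (s * s) z) = y z := fun z => by rw [← hm, key, key]
    have e1 : c g⁻¹ (c s x) = c s (c g⁻¹ x) := by rw [hm, hm, hgs.inv_right.eq]
    have e2 : c g⁻¹ (c (s * s) x) = c (s * s) (c g⁻¹ x) := by
      rw [hm, hm, (hgs.mul_left hgs).inv_right.eq]
    have h3 : y (c g⁻¹ x) ^ 3 = y x ^ 3 := by
      have e3 := congrArg y hgP
      simp only [P, map_mul (c g⁻¹), map_mul y, e1, e2, key, key2] at e3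
      rw [pow_succ, pow_two, pow_succ, pow_two]; exact e3
    rw [actHom_apply]
    refine mul_inv_eq_one.1 ?_
    rw [← map_inv, ← map_mul]
    refine eq_one_of_units_pow h.fpf hQK y _ (n := 3)
      (fun p hp hd => Or.inr ((Nat.prime_dvd_prime_iff_eq hp Nat.prime_three).1 hd)) ?_
    rw [map_mul y, map_inv y, mul_pow, inv_pow, h3, mul_inv_cancel]

variable [Finite V] [hr : Fact r.Prime] [CharP k r] [IsAlgClosed k]

/-- Abelian normal subgroups of order prime to `r` are central in `K`. -/
theorem IsModule.abelian_central (h : IsModule ρ K s t r) (hsol : Group.IsSolvable K) (hQK : Q ≤ K)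
    (hQc : IsMulCommutative Q) (hQ0 : (Nat.card Q : k) ≠ 0) {g x : X} (hg : g ∈ K) (hx : x ∈ Q) :
    g * x = x * g := by
  have hw := h.weights (k := k) hQK hQc hQ0
  have hgx : g * x * g⁻¹ ∈ Q := hQn.conj_mem x hx g
  have e : g * x * g⁻¹ = x := by
    refine h.faith_contra (k := k) (hQK hgx) (hQK hx) (ext_of_wts ρ hQ0 fun χ hχ f hf => ?_)
    have hfix := hw.fixes_all hsol (K.inv_mem hg) hχ
    rw [hf ⟨_, hgx⟩, hf ⟨x, hx⟩]
    congr 2
    have h2 := DFunLike.congr_fun hfix ⟨x, hx⟩
    rw [actHom_apply, inv_inv] at h2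
    rw [← h2]
    congr 1
  exact mul_inv_eq_iff_eq_mul.1 e

end Cfsg.Lib.Solv.S3
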